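import Cfsg.Agent.H41.LDKit2

/-! LD5-PL: the plane lemma. -/

set_option autoImplicit false

open Matrix Cfsg Cfsg.Geo H41.LD H19
open scoped MatrixGroups

namespace H30.LD

universe u

variable {K : Type u} [Field K] {n : ℕ}

theorem pl_zero {H : Subgroup (GL (Fin n) K)} (h2 : (2 : K) ≠ 0) (hH : NoTv H) {e ε f χ : Fin n → K}
    {μ : K} {D : Matrix (Fin n) (Fin n) K} (hx : In H (1 - N (e + f, ε + χ))) (h0 : ε ⬝ᵥ e = 2)
    (h1 : χ ⬝ᵥ e = 0) (h3 : χ ⬝ᵥ f = 0) (h4 : ε ⬝ᵥ f = 0) (hD : In H D) (d1 : D *ᵥ e = μ • e)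
    (d2 : ε ᵥ* D = μ • ε) (d3 : D *ᵥ f = f) (d4 : χ ᵥ* D = χ) (hμ : μ ^ 2 ≠ 1) : f = 0 ∧ χ = 0 := by
  have he : e ≠ 0 := fun e' => h2 (by rw [← h0, e']; simp)
  have hm : μ ≠ 0 := fun e' => he (hD.eq_zero (by simp [d1, e']))
  have hm1 : μ ≠ 1 := fun e' => hμ (by simp [e'])
  have h' : In H (1 - N (μ • e + f, μ⁻¹ • ε + χ)) := (hD.mul hx).of_mul hD (by
    rw [mul_sub, sub_mul, mul_N, N_mul]
    simp [mulVec_add, add_vecMul, smul_vecMul, d1, d2, d3, d4, smul_smul, hm])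
  refine hl0 hH (α := μ - 1) (β := 1 - μ⁻¹) (k := 2 * (μ - 1)) (e := e) (ε := ε) ?_ (sub_ne_zero.2 hm1)
    (sub_ne_zero.2 fun e' => hm1 (inv_eq_one.1 e'.symm)) (h0 ▸ h2) h1 h3 h4 hD d1 d2 d3 d4 hμ
  convert hx.mul h' using 1
  simp only [N_add_left, N_add_right, N_smul_left, N_smul_right, mul_add, add_mul, mul_sub, sub_mul,
    smul_mul_assoc, mul_smul_comm, N_mk_mul, h0, h1, h3, h4, mul_one, one_mul, zero_smul, smul_zero,
    add_zero, smul_add]
  match_scalars <;> field_simp <;> ring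

/-- `diag (l, 1)` -/
def dg2 (l : K) (hl : l ≠ 0) : GL (Fin 2) K :=
  ⟨diagonal ![l, 1], diagonal ![l⁻¹, 1], by ext i j; fin_cases i <;> fin_cases j <;> simp [hl],
    by ext i j; fin_cases i <;> fin_cases j <;> simp [hl]⟩

theorem cg_dg2 (l : K) (hl : l ≠ 0) (a b c d : K) :
    cg (dg2 l hl) (![a, b], ![c, d]) = (![l * a, b], ![l⁻¹ * c, d]) := by
  refine Prod.ext (funext fun i => ?_) (funext fun i => ?_)
  · change (diagonal ![l, 1] *ᵥ ![a, b]) i = _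
    fin_cases i <;> simp [mulVec_diagonal]
  · change (![c, d] ᵥ* diagonal ![l⁻¹, 1]) i = _
    fin_cases i <;> simp [vecMul_diagonal, mul_comm]

theorem det_rf {y : R n K} (h : y.2 ⬝ᵥ y.1 = 2) : (1 - N y).det = -1 := by
  rw [sub_eq_add_neg, ← N_neg_left, N, vecMulVec_eq Unit, det_one_add_replicateCol_mul_replicateRow]
  simp [h]; norm_num

theorem two_dim [IsAlgClosed K] (hS : JobS2.{u}) (h2 : (2 : K) ≠ 0) {G : Subgroup (GL (Fin 2) K)}
    [Finite G] (hT : NoTv G) {l X Y : K} (hl : l ≠ 0) (hl2 : l ^ 2 ≠ 1) (hX : X ≠ 0) (hY : Y ≠ 0)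
    (hX1 : X ≠ 1) (hr : Rf G (![1, 1], ![X, Y])) (hd : ∀ y, Rf G y → Rf G (cg (dg2 l hl) y)) :
    ¬ NoQ8 (Gen {y | Rf G y}) := by
  have hXY : X + Y = 2 := by simpa using hr.1
  have hl1 : l - 1 ≠ 0 := sub_ne_zero.2 fun e => hl2 (by simp [e])
  have hle : Gen {y | Rf G y} ≤ G := gen_le fun _ h => h
  have hm : ∀ {y} (h : Rf G y), rf y h.1 ∈ Gen {y | Rf G y} := fun h => Subgroup.subset_closure ⟨_, h, rfl⟩
  have nsl : ∀ g x : GL (Fin 2) K, x ∈ specialLinear (Fin 2) K → g * x * g⁻¹ ∈ specialLinear (Fin 2) K :=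
    fun g x hx => (MonoidHom.normal_ker _).conj_mem x hx g
  have n1 : ∀ x ∈ Gen {y | Rf G y}, dg2 l hl * x * (dg2 l hl)⁻¹ ∈ Gen {y | Rf G y} := fun a ha => by
    induction ha using Subgroup.closure_induction with
    | mem a ha =>
      obtain ⟨x, hx, e⟩ := ha
      refine Subgroup.subset_closure ⟨_, hd x hx, ?_⟩
      rw [N_cg, Units.val_mul, Units.val_mul, e, mul_sub, sub_mul, mul_one, Units.mul_inv]
    | one => simp
    | mul a b _ _ ha hb => simpa [mul_assoc] using Subgroup.mul_mem _ ha hb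
    | inv a _ ha => simpa [mul_assoc] using Subgroup.inv_mem _ ha
  have hs := hd _ hr
  rw [cg_dg2] at hs
  rcases (hS K h2).2 (Gen {y | Rf G y} ⊓ specialLinear (Fin 2) K)
    (Finite.of_injective _ (Subgroup.inclusion_injective (inf_le_left.trans hle))) inf_le_right
    (fun x hx => hT x ⟨hx.1, In.mono hx.2 (inf_le_left.trans hle)⟩) with h | h | ⟨e, ε, hD, h⟩
  · exact fun k => h fun a ha b hb => k a ha.1 b hb.1
  · exfalso
    obtain ⟨c, hc⟩ := (mem_scalars_iff _).1 (h (x := rf _ hr.1 * rf _ hs.1)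
      ⟨mul_mem (hm hr) (hm hs), MonoidHom.mem_ker.2 (Units.ext (by
        rw [GeneralLinearGroup.val_det_apply, Units.val_mul, det_mul]
        exact (congrArg₂ (· * ·) (det_rf hr.1) (det_rf hs.1)).trans (by simp)))⟩)
    have := congrFun₂ hc 0 1
    simp only [rf, N, Units.val_mul, mul_apply, Fin.sum_univ_two, Matrix.sub_apply, vecMulVec_apply] at this
    simp at this
    refine mul_ne_zero (mul_ne_zero hY (sub_ne_zero.2 hX1)) hl1 ?_
    linear_combination this - Y * hXY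
  · exfalso
    have a1 := h (dg2 l hl) fun x hx => ⟨n1 x hx.1, nsl _ _ hx.2⟩
    have a2 := h (rf _ hr.1) fun x hx =>
      ⟨Subgroup.mul_mem _ (Subgroup.mul_mem _ (hm hr) hx.1) (Subgroup.inv_mem _ (hm hr)), nsl _ _ hx.2⟩
    have b1 := hD.same 0
    have b2 := hD.same 1
    have b3 := hD.ne (i := 0) (j := 1) (by decide)
    have b4 := hD.ne (i := 1) (j := 0) (by decide)
    have b5 := congrFun₂ hD.sum_eq_one 0 0
    have b6 := congrFun₂ hD.sum_eq_one 1 1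
    simp only [rf, rf_mulVec] at a2
    simp only [dg2, dotProduct, mulVec_diagonal, Fin.sum_univ_two, Matrix.sum_apply, N, vecMulVec_apply,
      one_apply_eq, cons_val_zero, cons_val_one, Pi.sub_apply, Pi.smul_apply, smul_eq_mul] at a1 a2 b1 b2 b3 b4 b5 b6
    generalize e 0 0 = a, e 0 1 = b, e 1 0 = c, e 1 1 = d, ε 0 0 = p, ε 0 1 = q, ε 1 0 = r, ε 1 1 = s at *
    rcases a1 with ⟨c1, c2⟩ | ⟨c1, c2⟩
    · have d1 : r * a = 0 := (mul_eq_zero.1 (by linear_combination c1 - b4)).resolve_left hl1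
      have d2 : p * c = 0 := (mul_eq_zero.1 (by linear_combination c2 - b3)).resolve_left hl1
      have d3 : s * b = 0 := by linear_combination b4 - d1
      have d4 : q * d = 0 := by linear_combination b3 - d2
      by_cases ha : a = 0
      · have hq : q * b = 1 := by rw [← b1, ha]; ring
        have hs0 : s = 0 := (mul_eq_zero.1 d3).resolve_right (right_ne_zero_of_mul_eq_one hq)
        have hc : r * c = 1 := by rw [← b2, hs0]; ring
        have hp : p = 0 := (mul_eq_zero.1 d2).resolve_right (right_ne_zero_of_mul_eq_one hc)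
        subst ha hs0 hp
        rcases a2 with ⟨k, -⟩ | ⟨k, -⟩
        · exact mul_ne_zero (mul_ne_zero (left_ne_zero_of_mul_eq_one hc) hY)
            (right_ne_zero_of_mul_eq_one hq) (by linear_combination -k)
        · exact hX1 (by linear_combination hXY + k + (Y - 1) * hq)
      · have hr0 : r = 0 := (mul_eq_zero.1 d1).resolve_right ha
        have hs1 : s * d = 1 := by rw [← b2, hr0]; ring
        have hb : b = 0 := (mul_eq_zero.1 d3).resolve_left (left_ne_zero_of_mul_eq_one hs1)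
        have hq : q = 0 := (mul_eq_zero.1 d4).resolve_right (right_ne_zero_of_mul_eq_one hs1)
        subst hr0 hb hq
        rcases a2 with ⟨k, -⟩ | ⟨k, -⟩
        · exact mul_ne_zero (mul_ne_zero (left_ne_zero_of_mul_eq_one hs1) hX) ha
            (by linear_combination -k)
        · exact hX1 (by linear_combination -k - (X - 1) * b1)
    · exact hl2 (by linear_combination (l - 1) * (c1 + c2 - l * b5 - b6))

theorem sup_of_pl {r s y : R n K} (h : Pl r s y) (t : R n K) : Sup r s t y :=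
  ⟨Submodule.span_mono (Set.insert_subset_insert (Set.singleton_subset_iff.2 (Set.mem_insert _ _))) h.1,
    Submodule.span_mono (Set.insert_subset_insert (Set.singleton_subset_iff.2 (Set.mem_insert _ _))) h.2⟩

theorem plane [IsAlgClosed K] (hS : JobS2.{u}) (h2 : (2 : K) ≠ 0) {G : Subgroup (GL (Fin n) K)}
    [Finite G] (hT : NoTv G) {e ε : Fin 2 → Fin n → K} (hD : Dual e ε) {g : GL (Fin n) K}
    (hg : g ∈ G ⊔ scalars (Fin n) K) {l X Y : K} (hl2 : l ^ 2 ≠ 1) (g1 : g.val *ᵥ e 0 = l • e 0)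
    (g2 : g.val *ᵥ e 1 = e 1) (g3 : ε 0 ᵥ* g.val = l • ε 0) (g4 : ε 1 ᵥ* g.val = ε 1) (hX : X ≠ 0)
    (hY : Y ≠ 0) (hX1 : X ≠ 1) (hr : Rf G (e 0 + e 1, X • ε 0 + Y • ε 1)) : Q8c G := by
  have hl : l ≠ 0 := fun k => by
    have := In.eq_zero ⟨g, hg, rfl⟩ (v := e 0) (by rw [g1, k, zero_smul])
    simpa [this] using hD.same 0
  have hl1 : l - 1 ≠ 0 := sub_ne_zero.2 fun e => hl2 (by simp [e])
  have h := hD.mul
  have hup : ∀ y : R 2 K, up (Matrix.of e)ᵀ (Matrix.of ε) y =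
      (y.1 0 • e 0 + y.1 1 • e 1, y.2 0 • ε 0 + y.2 1 • ε 1) := fun y => by
    refine Prod.ext (funext fun i => ?_) (funext fun i => ?_) <;>
      simp [up, mulVec, vecMul, dotProduct, Fin.sum_univ_two, mul_comm]
  have i3 : ε 0 ᵥ* (g⁻¹).val = l⁻¹ • ε 0 := by
    have := congrArg (· ᵥ* (g⁻¹).val) g3
    simp only [vecMul_vecMul, Units.mul_inv, vecMul_one, smul_vecMul] at this
    rw [eq_inv_smul_iff₀ hl, ← this]
  have i4 : ε 1 ᵥ* (g⁻¹).val = ε 1 := by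
    have := congrArg (· ᵥ* (g⁻¹).val) g4
    simp only [vecMul_vecMul, Units.mul_inv, vecMul_one] at this
    exact this.symm
  have hd : ∀ y, Rf (G.comap (thG h)) y → Rf (G.comap (thG h)) (cg (dg2 l hl) y) := fun y hy => by
    have e1 : y = (![y.1 0, y.1 1], ![y.2 0, y.2 1]) :=
      Prod.ext (funext fun i => by fin_cases i <;> rfl) (funext fun i => by fin_cases i <;> rfl)
    rw [e1, cg_dg2, rf_comap]
    convert ((rf_comap h).1 hy).conj' hg using 1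
    rw [hup, hup, cg]
    simp only [mulVec_add, mulVec_smul, add_vecMul, smul_vecMul, g1, g2, i3, i4, smul_smul, cons_val_zero,
      cons_val_one, mul_comm]
  have hr' : Rf (G.comap (thG h)) (![1, 1], ![X, Y]) := (rf_comap h).2 (by simpa [hup] using hr)
  have hXY : X + Y = 2 := by simpa using hr'.1
  have hs := hd _ hr'
  rw [cg_dg2] at hs
  have ht := hd _ hs
  rw [cg_dg2] at ht
  haveI := finite_comap (G := G) h
  have hq := two_dim hS h2 (hT.comap h) hl hl2 hX hY hX1 hr' hd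
  have pl : ∀ y : R 2 K, Pl (up (Matrix.of e)ᵀ (Matrix.of ε) (![1, 1], ![X, Y]))
      (up (Matrix.of e)ᵀ (Matrix.of ε) (![l * 1, 1], ![l⁻¹ * X, Y]))
      (up (Matrix.of e)ᵀ (Matrix.of ε) y) := fun y => by
    simp only [Pl, hup, Submodule.mem_span_pair, cons_val_zero, cons_val_one]
    have hl1' : 1 - l ≠ 0 := fun k => hl1 (by linear_combination -k)
    refine ⟨⟨y.1 1 - (y.1 0 - y.1 1) / (l - 1), (y.1 0 - y.1 1) / (l - 1), ?_⟩,
      ⟨y.2 1 / Y - l * (y.2 0 / X - y.2 1 / Y) / (1 - l), l * (y.2 0 / X - y.2 1 / Y) / (1 - l), ?_⟩⟩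
    · match_scalars <;> field_simp <;> ring
    · match_scalars <;> field_simp <;> ring
  refine ⟨_, _, _, (nr_comap h).1 ⟨hr', hs, ht, fun k => ?_⟩, pl _, fun k => hq fun a ha b hb e1 e2 => ?_⟩
  · simp only [tau, dotProduct, Fin.sum_univ_two, cons_val_zero, cons_val_one] at k
    have k1 : X - Y ≠ 0 := fun k => hX1 (mul_left_cancel₀ h2 (by linear_combination k + hXY))
    refine mul_ne_zero (mul_ne_zero (mul_ne_zero (mul_ne_zero hX hY) k1) (sub_ne_zero.2 hl2))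
      (pow_ne_zero 2 hl1) ?_
    field_simp at k
    linear_combination k
  · have hle : ∀ t, Gen {y | Rf (G.comap (thG h)) y} ≤ (ParG G _ _ t).comap (thG h) := fun t =>
      (Subgroup.closure_le _).2 fun a ⟨y, hy, e⟩ => by
        obtain ⟨c, hc, e'⟩ := Rf.in_parG ((rf_comap h).1 hy) (sup_of_pl (pl y) t)
        rw [show c = thG h a from Units.ext (by rw [e', thG_val, e, th_rf])] at hc
        exact hc
    apply thG_inj h
    rw [map_pow, map_one]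
    exact k _ (hle _ ha) _ (hle _ hb) (by rw [← map_pow, e1, map_pow]) (by rw [← map_mul, ← map_pow, e2, map_pow])

theorem jobPL : JobPL.{u} := by
  intro hS K _ _ G hG h2 hQ A l hA hl ⟨g, hg, eg⟩ x hx
  haveI := hG.fin
  obtain ⟨v, ψ⟩ := x
  have a1 : A *ᵥ (A *ᵥ v) = A *ᵥ v := by rw [mulVec_mulVec, hA]
  have a2 : A *ᵥ (v - A *ᵥ v) = 0 := by rw [mulVec_sub, a1, sub_self]
  have a3 : (ψ ᵥ* A) ᵥ* A = ψ ᵥ* A := by rw [vecMul_vecMul, hA]
  have a4 : (ψ - ψ ᵥ* A) ᵥ* A = 0 := by rw [sub_vecMul, a3, sub_self]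
  have g1 : g.val *ᵥ (A *ᵥ v) = l • A *ᵥ v := by
    rw [eg, add_mulVec, smul_mulVec, a1, one_mulVec]; module
  have g2 : g.val *ᵥ (v - A *ᵥ v) = v - A *ᵥ v := by
    rw [eg, add_mulVec, smul_mulVec, a2, one_mulVec, smul_zero, add_zero]
  have g3 : (ψ ᵥ* A) ᵥ* g.val = l • ψ ᵥ* A := by
    rw [eg, vecMul_add, vecMul_smul, a3, vecMul_one]; module
  have g4 : (ψ - ψ ᵥ* A) ᵥ* g.val = ψ - ψ ᵥ* A := by
    rw [eg, vecMul_add, vecMul_smul, a4, vecMul_one, smul_zero, add_zero]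
  have d0 : ψ ⬝ᵥ v = 2 := hx.1
  have d1 : (ψ ᵥ* A) ⬝ᵥ (A *ᵥ v) = ψ ⬝ᵥ A *ᵥ v := by rw [← dotProduct_mulVec, a1]
  have d2 : (ψ ᵥ* A) ⬝ᵥ (v - A *ᵥ v) = 0 := by rw [← dotProduct_mulVec, a2, dotProduct_zero]
  have d3 : (ψ - ψ ᵥ* A) ⬝ᵥ (A *ᵥ v) = 0 := by rw [dotProduct_mulVec, a4, zero_dotProduct]
  have d4 : (ψ - ψ ᵥ* A) ⬝ᵥ (v - A *ᵥ v) = 2 - ψ ⬝ᵥ A *ᵥ v := by
    rw [sub_dotProduct, d2, sub_zero, dotProduct_sub, d0]
  have hH := hG.noTv h2
  have hx' : In (G ⊔ scalars (Fin 5) K) (1 - N (v, ψ)) := hx.isIn.mono le_sup_left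
  rw [mul_N, N_mul]
  change N (A *ᵥ v, ψ) = N (v, ψ ᵥ* A) ∨ ψ ⬝ᵥ A *ᵥ v = 1
  by_cases hA0 : A = 0
  · simp [hA0]
  have hl0 : l ≠ 0 := fun k => hA0 (by
    have : g.val * A = 0 := by rw [eg, k, add_mul, smul_mul_assoc, hA]; simp
    rw [← one_mul A, ← g.inv_mul, mul_assoc, this, mul_zero])
  by_cases X0 : ψ ⬝ᵥ A *ᵥ v = 0
  · obtain ⟨k1, k2⟩ := pl_zero h2 hH (e := v - A *ᵥ v) (ε := ψ - ψ ᵥ* A) (f := A *ᵥ v) (χ := ψ ᵥ* A)
      (μ := l⁻¹) (by simpa using hx') (by rw [d4, X0, sub_zero]) d2 (d1.trans X0) d3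
      (In.smul ⟨g, hg, rfl⟩ (inv_ne_zero hl0)) (by rw [smul_mulVec, g2]) (by rw [vecMul_smul, g4])
      (by rw [smul_mulVec, g1, inv_smul_smul₀ hl0]) (by rw [vecMul_smul, g3, inv_smul_smul₀ hl0])
      (by rwa [inv_pow, Ne, inv_eq_one])
    simp [k1, k2]
  by_cases X2 : ψ ⬝ᵥ A *ᵥ v = 2
  · obtain ⟨k1, k2⟩ := pl_zero h2 hH (f := v - A *ᵥ v) (χ := ψ - ψ ᵥ* A) (e := A *ᵥ v) (ε := ψ ᵥ* A)
      (μ := l) (by simpa using hx') (d1.trans X2) d3 (by rw [d4, X2, sub_self]) d2 ⟨g, hg, rfl⟩ g1 g3 g2 g4 hl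
    rw [← sub_eq_zero.1 k1, ← sub_eq_zero.1 k2]
    exact .inl rfl
  refine .inr (by_contra fun X1 => hQ ?_)
  have Y0 : 2 - ψ ⬝ᵥ A *ᵥ v ≠ 0 := sub_ne_zero.2 (Ne.symm X2)
  refine plane hS h2 (hG.tv h2) (e := ![A *ᵥ v, v - A *ᵥ v])
    (ε := ![(ψ ⬝ᵥ A *ᵥ v)⁻¹ • ψ ᵥ* A, (2 - ψ ⬝ᵥ A *ᵥ v)⁻¹ • (ψ - ψ ᵥ* A)]) (fun i j => ?_) hg hl g1 g2
    ?_ ?_ X0 Y0 X1 ?_
  · fin_cases i <;> fin_cases j
    · exact (smul_dotProduct _ _ _).trans ((congrArg _ d1).trans (inv_mul_cancel₀ X0))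
    · exact (smul_dotProduct _ _ _).trans ((congrArg _ d2).trans (smul_zero _))
    · exact (smul_dotProduct _ _ _).trans ((congrArg _ d3).trans (smul_zero _))
    · exact (smul_dotProduct _ _ _).trans ((congrArg _ d4).trans (inv_mul_cancel₀ Y0))
  · exact (smul_vecMul _ _ _).trans (by rw [g3]; exact smul_comm _ _ _)
  · exact (smul_vecMul _ _ _).trans (by rw [g4]; rfl)
  · simpa only [cons_val_zero, cons_val_one, smul_inv_smul₀ X0, smul_inv_smul₀ Y0, add_sub_cancel] using hx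

end H30.LD
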