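import Cfsg.Agent.H96.LDFP
import Cfsg.Agent.H30.LdPL

/-! LD5-Q8: no reflection group of rank two with a quaternion subgroup. -/

set_option autoImplicit false

open Matrix Cfsg Cfsg.Geo H41.LD H96.LD
open H19 hiding cj
open scoped MatrixGroups

namespace H30.LD

universe u

variable {K : Type u} [Field K] {n : ℕ} {G : Subgroup (GL (Fin n) K)} {r s t x y a b A B C : R n K}
  {e ε : Fin 3 → Fin n → K} {i j k : Fin 3} {η θ : K}

theorem pl_trans (h : Pl r s y) (h1 : Pl a b r) (h2 : Pl a b s) : Pl a b y :=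
  ⟨Submodule.span_le.2 (by rintro _ (rfl | rfl); exacts [h1.1, h2.1]) h.1,
    Submodule.span_le.2 (by rintro _ (rfl | rfl); exacts [h1.2, h2.2]) h.2⟩

theorem pl_1 (r s : R n K) : Pl r s r := ⟨Submodule.subset_span (by simp), Submodule.subset_span (by simp)⟩

theorem pl_2 (r s : R n K) : Pl r s s := ⟨Submodule.subset_span (by simp), Submodule.subset_span (by simp)⟩

theorem pl_of_sup (h : Pl r s t) (hy : Sup r s t y) : Pl r s y :=
  ⟨Submodule.span_le.2 (by rintro _ (rfl | rfl | rfl); exacts [(pl_1 r s).1, (pl_2 r s).1, h.1]) hy.1,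
    Submodule.span_le.2 (by rintro _ (rfl | rfl | rfl); exacts [(pl_1 r s).2, (pl_2 r s).2, h.2]) hy.2⟩

theorem pl_of_N (h : Pl a b x) (e : N y = N x) (h0 : N y ≠ 0) : Pl a b y := by
  rw [e] at h0
  obtain ⟨c, -, h1, h2⟩ := exists_smul_of_N e (fun e => h0 (N_eq_zero.2 (.inl e)))
    fun e => h0 (N_eq_zero.2 (.inr e))
  exact ⟨h1 ▸ Submodule.smul_mem _ _ h.1, h2 ▸ Submodule.smul_mem _ _ h.2⟩

theorem span_pair_swap {a b a' b' w : Fin n → K} (ha : a' ∈ Submodule.span K {a, b})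
    (hb : b' ∈ Submodule.span K {a, b}) (h0 : a' ≠ 0) (h1 : ∀ c : K, b' ≠ c • a')
    (hw : w ∈ Submodule.span K {a, b}) : w ∈ Submodule.span K {a', b'} := by
  obtain ⟨p, q, rfl⟩ := Submodule.mem_span_pair.1 ha
  obtain ⟨p', q', rfl⟩ := Submodule.mem_span_pair.1 hb
  obtain ⟨c, d, rfl⟩ := Submodule.mem_span_pair.1 hw
  have hD : p * q' - q * p' ≠ 0 := fun z => by
    by_cases hp : p = 0
    · have hq : q ≠ 0 := fun hq => h0 (by simp [hp, hq])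
      have : p' = 0 := by simpa [hp, hq] using z
      exact h1 (q' / q) (by simp [hp, this, smul_smul, hq])
    · refine h1 (p' / p) ?_
      match_scalars
      · field_simp
      · field_simp; linear_combination z
  have hD' := mul_inv_cancel₀ hD
  refine Submodule.mem_span_pair.2 ⟨(c * q' - d * p') * (p * q' - q * p')⁻¹,
    (d * p - c * q) * (p * q' - q * p')⁻¹, ?_⟩
  generalize (p * q' - q * p')⁻¹ = D at hD'
  match_scalars
  · linear_combination c * hD'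
  · linear_combination d * hD'

theorem pl_swap (hT : Thin G) (hA : Rf G A) (hB : Rf G B) (hN : N A ≠ N B) (h1 : Pl a b A) (h2 : Pl a b B)
    (h : Pl a b y) : Pl A B y :=
  ⟨span_pair_swap h1.1 h2.1 hA.2.1 (fun _ z => hN (hT.N_eq_of_left hA hB z).symm) h.1,
    span_pair_swap h1.2 h2.2 hA.2.2.1 (fun _ z => hN (hT.N_eq_of_right hA hB z).symm) h.2⟩

theorem pl_sw (e ε : Fin 3 → Fin n → K) (i j : Fin 3) (η : K) :
    Pl (e i, ε i) (e j, ε j) (sw e ε i j η) :=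
  ⟨sub_mem (pl_1 _ _).1 (Submodule.smul_mem _ _ (pl_2 (e i, ε i) (e j, ε j)).1),
    sub_mem (pl_1 _ _).2 (Submodule.smul_mem _ _ (pl_2 (e i, ε i) (e j, ε j)).2)⟩

theorem dot_zero {l : Fin n → K} (h : Pl r s y) (h1 : l ⬝ᵥ r.1 = 0) (h2 : l ⬝ᵥ s.1 = 0) : l ⬝ᵥ y.1 = 0 := by
  obtain ⟨p, q, e⟩ := Submodule.mem_span_pair.1 h.1
  simp [← e, h1, h2]

theorem dot_zero_N {l : Fin n → K} (e : N y = N x) (h0 : N y ≠ 0) (h : l ⬝ᵥ x.1 = 0) : l ⬝ᵥ y.1 = 0 :=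
  dot_zero (pl_of_N (pl_1 x x) e h0) h h

theorem not_nr_three (key : tau A B C = tau A C B) (hr : N r = N A ∨ N r = N B ∨ N r = N C)
    (hs : N s = N A ∨ N s = N B ∨ N s = N C) (ht : N t = N A ∨ N t = N B ∨ N t = N C) : ¬ NR G r s t := by
  intro h
  simp only [tau] at key
  rcases hr with a | a | a <;> rcases hs with b | b | b <;> rcases ht with c | c | c <;>
    refine (NR_of_N h a.symm b.symm c.symm).ne ?_ <;> simp only [tau] <;>
    first | ring1 | linear_combination key | linear_combination -key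

/-- monomial -/
def Mo (e ε : Fin 3 → Fin n → K) (y : R n K) : Prop := (∃ i, N y = N (dg e ε i)) ∨ Sw e ε y

theorem three_cases : ∀ i j k l : Fin 3, i ≠ j → i ≠ k → j ≠ k → l = i ∨ l = j ∨ l = k := by decide

theorem caseB (hd : Dual e ε) (hij : i ≠ j) (hik : i ≠ k) (hjk : j ≠ k) (hη : η ≠ 0) (hθ : θ ≠ 0)
    (ha : N a = N (sw e ε i j η)) (hb : N b = N (sw e ε j k θ)) (a0 : N a ≠ 0) (b0 : N b ≠ 0)
    (h : NR G r s t) (h1 : Pl a b r ∧ Mo e ε r) (h2 : Pl a b s ∧ Mo e ε s) (h3 : Pl a b t ∧ Mo e ε t) :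
    False := by
  have key : ∀ y, N y ≠ 0 → Pl a b y ∧ Mo e ε y → N y = N (sw e ε i j η) ∨ N y = N (sw e ε j k θ) ∨
      N y = N (sw e ε i k (η * θ)) := by
    rintro y y0 ⟨hy, hm⟩
    have z : ((η * θ) • ε i + θ • ε j + ε k) ⬝ᵥ y.1 = 0 := dot_zero hy
      (dot_zero_N ha a0 (by simp [sw, hd.same, hd.ne hij, hd.ne hij.symm, hd.ne hik.symm, hd.ne hjk.symm]))
      (dot_zero_N hb b0 (by simp [sw, hd.same, hd.ne hij, hd.ne hik, hd.ne hjk, hd.ne hjk.symm]))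
    have z' := fun {w} (e : N y = N w) => dot_zero_N e.symm (e ▸ y0) z
    rcases hm with ⟨l, p⟩ | hm
    · have := z' p
      rcases three_cases i j k l hij hik hjk with rfl | rfl | rfl <;>
        simp [dg, hd.same, hd.ne hij, hd.ne hij.symm, hd.ne hik.symm, hd.ne hjk.symm, hd.ne hik, hd.ne hjk,
          hη, hθ] at this
    · obtain ⟨κ, -, p | p | p⟩ := hm.cases hij hik hjk <;> have := z' p <;>
        simp [sw, hd.same, hd.ne hij, hd.ne hij.symm, hd.ne hik.symm, hd.ne hjk.symm, hd.ne hik, hd.ne hjk,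
          sub_eq_zero, hθ] at this
      · exact .inl (this ▸ p)
      · exact .inr (.inl (this ▸ p))
      · exact .inr (.inr (this ▸ p))
  refine not_nr_three ?_ (key r h.r1.N_ne h1) (key s h.r2.N_ne h2) (key t h.r3.N_ne h3) h
  simp [tau, sw, hd.same, hd.ne hij, hd.ne hij.symm, hd.ne hik.symm, hd.ne hjk.symm, hd.ne hik, hd.ne hjk]
  field_simp

/-- diagonal on the plane -/
def Dp (e ε : Fin 3 → Fin n → K) (i j : Fin 3) (y : R n K) : Prop :=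
  N y = N (dg e ε i) ∨ N y = N (dg e ε j)

/-- swap on the plane -/
def Sp (e ε : Fin 3 → Fin n → K) (i j : Fin 3) (y : R n K) : Prop :=
  ∃ κ, κ ≠ 0 ∧ N y = N (sw e ε i j κ)

theorem dp_or_sp (hd : Dual e ε) (hij : i ≠ j) (hik : i ≠ k) (hjk : j ≠ k) (y0 : N y ≠ 0)
    (z : ε k ⬝ᵥ y.1 = 0) (hm : Mo e ε y) : Dp e ε i j y ∨ Sp e ε i j y := by
  have z' := fun {w} (e : N y = N w) => dot_zero_N e.symm (e ▸ y0) z
  rcases hm with ⟨l, p⟩ | hm
  · rcases three_cases i j k l hij hik hjk with rfl | rfl | rfl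
    · exact .inl (.inl p)
    · exact .inl (.inr p)
    · simpa [dg, hd.same] using z' p
  · obtain ⟨κ, h0, p | p | p⟩ := hm.cases hij hik hjk
    · exact .inr ⟨κ, h0, p⟩
    · simpa [sw, hd.same, hd.ne hjk.symm, h0] using z' p
    · simpa [sw, hd.same, hd.ne hik.symm, h0] using z' p

theorem pl_of_type (y0 : N y ≠ 0) (h : Dp e ε i j y ∨ Sp e ε i j y) : Pl (e i, ε i) (e j, ε j) y := by
  rcases h with (p | p) | ⟨κ, -, p⟩
  · exact pl_of_N (x := dg e ε i) ⟨(pl_1 (e i, ε i) (e j, ε j)).1,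
      Submodule.smul_mem _ _ (pl_1 (e i, ε i) (e j, ε j)).2⟩ p y0
  · exact pl_of_N (x := dg e ε j) ⟨(pl_2 (e i, ε i) (e j, ε j)).1,
      Submodule.smul_mem _ _ (pl_2 (e i, ε i) (e j, ε j)).2⟩ p y0
  · exact pl_of_N (pl_sw e ε i j κ) p y0

/-- two swaps whose quotient has large order -/
def Big (G : Subgroup (GL (Fin n) K)) (e ε : Fin 3 → Fin n → K) (i j : Fin 3) : Prop :=
  ∃ κ ζ, κ ≠ 0 ∧ ζ ≠ 0 ∧ Rf G (sw e ε i j κ) ∧ Rf G (sw e ε i j (ζ * κ)) ∧ ζ ^ 2 ≠ 1 ∧ ζ ^ 3 ≠ 1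

theorem not_dd (hd : Dual e ε) (hij : i ≠ j) (h : NR G r s t) (h1 : Dp e ε i j r) (h2 : Dp e ε i j s) :
    False := by
  rcases h1 with p | p <;> rcases h2 with q | q
  · exact h.N_ne (p.trans q.symm)
  · exact (NR_of_N h p.symm q.symm rfl).ne (by simp [tau, dg, hd.ne hij, hd.ne hij.symm])
  · exact (NR_of_N h p.symm q.symm rfl).ne (by simp [tau, dg, hd.ne hij, hd.ne hij.symm])
  · exact h.N_ne (p.trans q.symm)

theorem big_aux (h2 : (2 : K) ≠ 0) (hd : Dual e ε) (hij : i ≠ j) (h : NR G r s t) (h1 : Sp e ε i j r)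
    (h3 : Sp e ε i j s) (h4 : Dp e ε i j t) : Big G e ε i j := by
  obtain ⟨κ, hκ, p⟩ := h1
  obtain ⟨κ', hκ', q⟩ := h3
  have a := h.r1.of_N p.symm
  have b := h.r2.of_N q.symm
  have z : (κ' * κ⁻¹) ^ 2 ≠ 1 := fun z => (NR_of_N h p.symm q.symm rfl).ne (by
    rw [← sub_eq_zero, tau_sw_sub hd hij hκ hκ', show κ' * κ⁻¹ = κ'⁻¹ * κ by
      rw [eq_inv_of_mul_eq_one_left ((pow_two _).symm.trans z), mul_inv, inv_inv], sub_self, mul_zero])
  by_cases z3 : (κ' * κ⁻¹) ^ 3 = 1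
  · refine ⟨κ, -(κ' * κ⁻¹), hκ, by simp [hκ, hκ'], a, ?_, by rwa [neg_sq], fun w => h2 ?_⟩
    · rw [neg_mul, inv_mul_cancel_right₀ hκ]
      rcases h4 with w | w
      · refine ((h.r3.of_N w.symm).cj b).of_N ?_
        simp only [cj, sw, dg, sub_dotProduct, dotProduct_sub, smul_dotProduct, dotProduct_smul, hd.same,
          hd.ne hij, hd.ne hij.symm, N_sub_left, N_sub_right, N_smul_left, N_smul_right, inv_neg]
        module
      · refine ((h.r3.of_N w.symm).cj b).of_N ?_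
        simp only [cj, sw, dg, sub_dotProduct, dotProduct_sub, smul_dotProduct, dotProduct_smul, hd.same,
          hd.ne hij, hd.ne hij.symm, N_sub_left, N_sub_right, N_smul_left, N_smul_right, inv_neg]
        module
    · linear_combination -w - z3
  · exact ⟨κ, κ' * κ⁻¹, hκ, by simp [hκ, hκ'], a, by rwa [inv_mul_cancel_right₀ hκ], z, z3⟩

theorem big (h2 : (2 : K) ≠ 0) (hd : Dual e ε) (hij : i ≠ j) (h : NR G r s t)
    (h1 : Dp e ε i j r ∨ Sp e ε i j r) (h3 : Dp e ε i j s ∨ Sp e ε i j s)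
    (h4 : Dp e ε i j t ∨ Sp e ε i j t) : Big G e ε i j := by
  rcases h1 with a | a <;> rcases h3 with b | b <;> rcases h4 with c | c
  · exact (not_dd hd hij h a b).elim
  · exact (not_dd hd hij h a b).elim
  · exact (not_dd hd hij h.swap a c).elim
  · exact big_aux h2 hd hij h.rot b c a
  · exact (not_dd hd hij h.rot b c).elim
  · exact big_aux h2 hd hij h.swap a c b
  · exact big_aux h2 hd hij h a b c
  · obtain ⟨κ, hκ, p⟩ := a
    obtain ⟨κ', hκ', q⟩ := b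
    obtain ⟨κ'', hκ'', w⟩ := c
    refine ((NR_of_N h p.symm q.symm w.symm).ne ?_).elim
    rw [← sub_eq_zero, tau_sw_sub hd hij hκ hκ']
    simp [X, sw, hd.same, hd.ne hij, hd.ne hij.symm, hκ'']

theorem q8_final (hFP : JobFP.{u}) (hMA : JobMA.{u}) (hMB : JobMB.{u}) {G : Subgroup (GL (Fin 5) K)}
    (hG : RS G) (hL : List3 G) (hD : Deg G) {e ε : Fin 3 → Fin 5 → K} {ζ : K} (hf : Frame G e ε)
    (hm : Mu G e ε ζ) (z2 : ζ ^ 2 ≠ 1) (z3 : ζ ^ 3 ≠ 1)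
    (hq : ∀ y, ¬ NoQ8 (ParG G (sw e ε 0 1 1) (sw e ε 0 1 ζ) y)) : False := by
  have hp : HP G e ε := fun y hy => by
    by_cases h0 : X e ε y 0 = X e ε y 1
    · exact .inl h0
    have nr : NR G (sw e ε 0 1 1) (sw e ε 0 1 ζ) y := ⟨hf.s01, hm.2, hy, by
      rw [← sub_ne_zero, tau_sw_sub hf.dual (by decide) one_ne_zero hm.1]
      refine mul_ne_zero (sub_ne_zero.2 h0) (sub_ne_zero.2 fun z => z2 ?_)
      rw [inv_one, mul_one, mul_one] at z
      rw [pow_two]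
      nth_rw 1 [z]
      exact inv_mul_cancel₀ hm.1⟩
    by_cases h1 : dt (sw e ε 0 1 1) (sw e ε 0 1 ζ) y = 0
    · have w := pl_trans (hD _ _ _ nr h1) (pl_sw e ε 0 1 1) (pl_sw e ε 0 1 ζ)
      simp only [Pl] at w
      exact .inr (.inr (.inr w))
    rcases hL _ _ _ nr h1 with k | ⟨-, k | k⟩
    · exact (hFP K G).2 e ε ζ y hf hm z2 z3 hy h1 k
    · exact (hq y k.q8).elim
    · exact (hq y k.q8).elim
  exact z3 (by linear_combination (ζ - 1) * (hMB hMA K G hG e ε ζ hf hm z2 hp).om)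

theorem caseA (hFP : JobFP.{u}) (hMA : JobMA.{u}) (hMB : JobMB.{u}) {G : Subgroup (GL (Fin 5) K)}
    (hG : RS G) (h2 : (2 : K) ≠ 0) (hL : List3 G) (hD : Deg G) {e ε : Fin 3 → Fin 5 → K} (hd : Dual e ε)
    (hij : i ≠ j) (hik : i ≠ k) (hjk : j ≠ k) {r s t : R 5 K} (h : NR G r s t)
    (hq : ¬ NoQ8 (ParG G r s t)) (h1 : ε k ⬝ᵥ r.1 = 0 ∧ Mo e ε r) (h3 : ε k ⬝ᵥ s.1 = 0 ∧ Mo e ε s)
    (h4 : ε k ⬝ᵥ t.1 = 0 ∧ Mo e ε t) (hθ : θ ≠ 0) (hx : Rf G (sw e ε j k θ)) : False := by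
  have a := dp_or_sp hd hij hik hjk h.r1.N_ne h1.1 h1.2
  have b := dp_or_sp hd hij hik hjk h.r2.N_ne h3.1 h3.2
  have c := dp_or_sp hd hij hik hjk h.r3.N_ne h4.1 h4.2
  obtain ⟨κ, ζ, hκ, hζ, p, q, z2, z3⟩ := big h2 hd hij h a b c
  have e1 : ∀ η, sw ![e i, κ • e j, (κ * θ) • e k] ![ε i, κ⁻¹ • ε j, (κ * θ)⁻¹ • ε k] 0 1 η =
      sw e ε i j (η * κ) := fun η => by simp [sw, smul_smul, mul_comm]
  have hN : N (sw e ε i j κ) ≠ N (sw e ε i j (ζ * κ)) := fun z => z2 (by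
    have := dot_zero_N (l := κ • ε i + ε j) z.symm q.N_ne (by simp [sw, hd.same, hd.ne hij, hd.ne hij.symm])
    simp [sw, hd.same, hd.ne hij, hd.ne hij.symm, sub_eq_zero, hκ] at this
    simp [this])
  refine q8_final hFP hMA hMB hG hL hD (e := ![e i, κ • e j, (κ * θ) • e k])
    (ε := ![ε i, κ⁻¹ • ε j, (κ * θ)⁻¹ • ε k]) ⟨fun a b => ?_, by rwa [e1, one_mul], hx.of_N ?_⟩
    ⟨hζ, by rwa [e1]⟩ z2 z3 fun y k => hq fun a' ha b' hb => ?_
  · fin_cases a <;> fin_cases b <;>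
      simp [hd.same, hd.ne hij, hd.ne hik, hd.ne hjk, hd.ne hij.symm, hd.ne hik.symm, hd.ne hjk.symm, hκ]
    field_simp
  · rw [← N_scale hκ (sw e ε j k θ)]
    simp [sw, smul_sub, smul_smul, mul_comm]
  · rw [e1, e1, one_mul] at k
    have w := fun {v : R 5 K} (v0 : N v ≠ 0) (hv : Dp e ε i j v ∨ Sp e ε i j v) => sup_of_pl
      (pl_swap hG.thin p q hN (pl_sw e ε i j _) (pl_sw e ε i j _) (pl_of_type v0 hv)) y
    have le := parG_mono (G := G) (w h.r1.N_ne a) (w h.r2.N_ne b) (w h.r3.N_ne c)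
    exact k a' (le ha) b' (le hb)

theorem jobQ8 : JobQ8.{u} := by
  rintro hFP hMA hMB K _ _ G hG h2 hL hD ⟨r, s, t, h, hp, hq⟩
  obtain ⟨r', s', x, a1, a2, h', hx⟩ := hG.exists_nr h
  have h0 := hD.dt_ne a1 a2 h' hx
  have P : ∀ {y}, Sup r s t y → Pl r' s' y := fun hy =>
    pl_swap hG.thin h'.r1 h'.r2 h'.N_ne (pl_of_sup hp a1) (pl_of_sup hp a2) (pl_of_sup hp hy)
  have le := parG_mono (G := G) (sup_of_pl (P (sup_1 r s t)) x) (sup_of_pl (P (sup_2 r s t)) x)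
    (sup_of_pl (P (sup_3 r s t)) x)
  rcases hL _ _ _ h' h0 with ⟨e, ε, hd, -, hm⟩ | ⟨-, k | k⟩
  swap
  · exact hq fun a ha b hb => k.q8 a (le ha) b (le hb)
  swap
  · exact hq fun a ha b hb => k.q8 a (le ha) b (le hb)
  have m : ∀ y, Rf G y → Sup r' s' x y → Mo e ε y := fun y a b =>
    (hm y a b).imp_left fun ⟨i, hi⟩ => ⟨i, hi.2⟩
  have a := m r' h'.r1 (sup_1 _ _ _)
  have b := m s' h'.r2 (sup_2 _ _ _)
  have c := m x h'.r3 (sup_3 _ _ _)
  obtain ⟨i, j, η, hij, hη, p⟩ := a.resolve_left fun ⟨_, p⟩ => no_dg hd h' h0 p b c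
  have b' := b.resolve_left fun ⟨_, p⟩ => no_dg hd h'.rot (by rwa [dt_rot]) p c a
  have c' := c.resolve_left fun ⟨_, p⟩ => no_dg hd h'.rot.rot (by rwa [dt_rot, dt_rot]) p a b
  obtain ⟨k, hik, hjk⟩ := third hij
  have m1 := And.intro (P (sup_1 r s t)) (m r h.r1 (sup_of_pl (P (sup_1 r s t)) x))
  have m2 := And.intro (P (sup_2 r s t)) (m s h.r2 (sup_of_pl (P (sup_2 r s t)) x))
  have m3 := And.intro (P (sup_3 r s t)) (m t h.r3 (sup_of_pl (P (sup_3 r s t)) x))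
  have p' := p.trans (N_sw_symm _ _ _ _ hη).symm
  obtain ⟨θ, hθ, q | q | q⟩ := b'.cases hij hik hjk
  · have z : ∀ {y}, Pl r' s' y → ε k ⬝ᵥ y.1 = 0 := fun hy => dot_zero hy
      (dot_zero_N p h'.r1.N_ne (by simp [sw, hd.ne hik.symm, hd.ne hjk.symm]))
      (dot_zero_N q h'.r2.N_ne (by simp [sw, hd.ne hik.symm, hd.ne hjk.symm]))
    obtain ⟨l, hl, w | w | w⟩ := c'.cases hij hik hjk
    · refine h0 ?_
      rw [dt_congr p q w, dt_sw_sw hd hij hη hθ]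
      simp [X, sw, hd.same, hd.ne hij, hd.ne hij.symm, hl]
      exact Or.inr (by norm_num)
    · exact caseA hFP hMA hMB hG h2 hL hD hd hij hik hjk h hq ⟨z m1.1, m1.2⟩ ⟨z m2.1, m2.2⟩ ⟨z m3.1, m3.2⟩
        hl (h'.r3.of_N w.symm)
    · exact caseA hFP hMA hMB hG h2 hL hD hd hij.symm hjk hik h hq ⟨z m1.1, m1.2⟩ ⟨z m2.1, m2.2⟩
        ⟨z m3.1, m3.2⟩ hl (h'.r3.of_N w.symm)
  · exact caseB hd hij hik hjk hη hθ p q h'.r1.N_ne h'.r2.N_ne h m1 m2 m3
  · exact caseB hd hij.symm hjk hik (inv_ne_zero hη) hθ p' q h'.r1.N_ne h'.r2.N_ne h m1 m2 m3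

end H30.LD
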