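import Cfsg.Agent.H30.LdSy1

/-! LD5-Sy: Sylow 2-subgroups of quasisimple subgroups of `SL₅` without elements of rank one. -/

set_option autoImplicit false

open Matrix Cfsg Cfsg.Geo H41.LD H58.LD H19
open scoped commutatorElement MatrixGroups

namespace H30.LD

universe u

variable {K : Type u} [Field K] {P : Subgroup (GL (Fin 5) K)}

/-- the sign of a bit -/
def sg (K : Type u) [Field K] (b : Bool) : K := if b then -1 else 1

theorem sg_xor (a b : Bool) : sg K (xor a b) = sg K a * sg K b := by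
  cases a <;> cases b <;> simp [sg]

/-- the weight of a word -/
def wt (u : Fin 5 → Bool) : ℕ := (u 0).toNat + (u 1).toNat + (u 2).toNat + (u 3).toNat + (u 4).toNat

/-- the sum of two words -/
def ad (u v : Fin 5 → Bool) : Fin 5 → Bool := fun i => xor (u i) (v i)

theorem wt_cases : ∀ u : Fin 5 → Bool, xor (xor (xor (xor (u 0) (u 1)) (u 2)) (u 3)) (u 4) = false →
    (∀ i, u i = false) ∨ wt u = 2 ∨ ∃ k, ∀ i, u i = decide (i ≠ k) := by decide +kernel

theorem no_code : ∀ a : Fin 5 → Bool, wt a = 2 → ∀ b : Fin 5 → Bool, wt b = 2 → wt (ad a b) = 2 →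
    ∀ c : Fin 5 → Bool, wt c = 2 → wt (ad a c) = 2 → wt (ad b c) = 2 → wt (ad (ad a b) c) ≠ 2 := by
  decide +kernel

theorem sum_sg (u : Fin 5 → Bool) (h : wt u = 2) : ∑ i, sg K (u i) = 1 := by
  have e : ∀ b : Bool, sg K b = 1 - 2 * (b.toNat : K) := fun b => by
    cases b <;> simp [sg]; norm_num
  have h' : ((u 0).toNat : K) + (u 1).toNat + (u 2).toNat + (u 3).toNat + (u 4).toNat = 2 := by
    exact_mod_cast congrArg (Nat.cast : ℕ → K) h
  simp only [Fin.sum_univ_five, e]
  linear_combination (-2) * h'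

theorem exists_word {d : Fin 5 → K} (h : diagonal d * diagonal d = 1) :
    ∃ u : Fin 5 → Bool, d = fun i => sg K (u i) := by
  classical
  rw [diagonal_mul_diagonal, ← diagonal_one, diagonal_eq_diagonal_iff] at h
  refine ⟨fun i => decide (d i ≠ 1), funext fun i => ?_⟩
  by_cases e : d i = 1
  · simp [sg, e]
  · simp [sg, e, (mul_self_eq_one_iff.1 (h i)).resolve_left e]

theorem det_one_of {g : GL (Fin 5) K} (h : g ∈ specialLinear (Fin 5) K) : g.val.det = 1 := by
  rw [← GeneralLinearGroup.val_det_apply, MonoidHom.mem_ker.1 h, Units.val_one]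

theorem pow_five_eq {G : Type*} [Group G] {a : G} (h : a ^ 2 = 1) : a ^ 5 = a := by
  rw [show 5 = 2 * 2 + 1 from rfl, pow_succ, pow_mul, h, one_pow, one_mul]

theorem wt_two (h2 : (2 : K) ≠ 0) (hP : P ≤ specialLinear (Fin 5) K) (hr : ∀ x, ¬ Rf (PM P) x)
    {B B' : Mt 5 K} (hB : B * B' = 1) {t : GL (Fin 5) K} (ht : t ∈ P) (h1 : t ≠ 1) {u : Fin 5 → Bool}
    (e : B' * t.val * B = diagonal fun i => sg K (u i)) : wt u = 2 := by
  have hB' := mul_eq_one_comm.1 hB
  have e' : t.val = B * (diagonal fun i => sg K (u i)) * B' := by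
    rw [← e, ← mul_assoc, ← mul_assoc, hB, one_mul, mul_assoc, hB, mul_one]
  have hd : t.val.det = 1 := det_one_of (hP ht)
  rw [e', det_mul_comm, ← mul_assoc, hB', one_mul, det_diagonal, Fin.prod_univ_five, ← sg_xor, ← sg_xor,
    ← sg_xor, ← sg_xor] at hd
  rcases wt_cases u (by
    by_contra k
    rw [Bool.not_eq_false] at k
    rw [k] at hd
    exact h2 (by simp only [sg, if_true] at hd; linear_combination -hd)) with k | k | ⟨k, hk⟩
  · refine (h1 (Units.ext ?_)).elim
    simp [e', k, sg, hB]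
  · exact k
  · exfalso
    have hx : (((2 : K) • Pi.single k 1) ᵥ* B') ⬝ᵥ (B *ᵥ Pi.single k 1) = 2 := by
      rw [← dotProduct_mulVec, mulVec_mulVec, hB', one_mulVec]; simp
    refine hr (B *ᵥ Pi.single k 1, ((2 : K) • Pi.single k 1) ᵥ* B') (rf_of_in hx (fun k => h2 ?_)
      ⟨t * -1, Subgroup.mul_mem_sup ht (Subgroup.mem_zpowers _), ?_⟩)
    · rw [← hx, ← trace_N (B *ᵥ Pi.single _ 1, _), k, trace_zero]
    · have e1 : -(diagonal fun i => sg K (u i)) =
          1 - vecMulVec (Pi.single k 1) ((2 : K) • Pi.single k 1) := by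
        ext i j
        by_cases a : i = j
        · subst a
          by_cases b : i = k <;> simp [sg, hk, b, vecMulVec_apply]
          norm_num
        · by_cases b : i = k
          · subst b
            simp [vecMulVec_apply, a, Ne.symm a]
          · simp [vecMulVec_apply, a, b]
      rw [N, ← vecMulVec_mul, ← mul_vecMulVec, ← hB]
      conv_rhs => rw [← mul_one B]
      rw [mul_assoc B 1, mul_one B, mul_assoc B, ← mul_sub, ← sub_mul, ← e1]
      simp [-diagonal_neg, e', mul_assoc]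

theorem pow_five (hP : P ≤ specialLinear (Fin 5) K) {z : P}
    (hz : (z : Bar P) = 1) : z ^ 5 = 1 ∧ ∀ g : P, g * z = z * g := by
  obtain ⟨c, hc⟩ := (mem_scalars_iff _).1 (Subgroup.mem_subgroupOf.1 ((QuotientGroup.eq_one_iff z).1 hz))
  have hd : z.val.val.det = 1 := det_one_of (hP z.2)
  rw [hc, det_smul, det_one, mul_one, Fintype.card_fin] at hd
  refine ⟨Subtype.ext (Units.ext ?_), fun g => Subtype.ext (Units.ext ?_)⟩
  · simp [hc, smul_pow, hd]
  · simp [hc]

theorem exists_lift (hP : P ≤ specialLinear (Fin 5) K) {a : Bar P} (ha : a ^ 2 = 1) :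
    ∃ g : P, (g : Bar P) = a ∧ g * g = 1 := by
  obtain ⟨g, rfl⟩ := QuotientGroup.mk_surjective a
  refine ⟨g ^ 5, ?_, ?_⟩
  · rw [QuotientGroup.mk_pow, pow_five_eq ha]
  · rw [← pow_add, show 5 + 5 = 2 * 5 from rfl, pow_mul]
    exact (pow_five hP (by rwa [QuotientGroup.mk_pow])).1

theorem lift_comm (hP : P ≤ specialLinear (Fin 5) K) {a b : P} (hb : b * b = 1)
    (h : (a : Bar P) * b = b * a) : a * b = b * a := by
  obtain ⟨h5, hc⟩ := pow_five hP (z := a * b * a⁻¹ * b⁻¹) (by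
    rw [QuotientGroup.mk_mul, QuotientGroup.mk_mul, QuotientGroup.mk_mul, h, QuotientGroup.mk_inv,
      QuotientGroup.mk_inv, mul_inv_cancel_right, mul_inv_cancel])
  generalize hz : a * b * a⁻¹ * b⁻¹ = z at h5 hc
  have e : a * b * a⁻¹ = z * b := by rw [← hz, inv_mul_cancel_right]
  have h2 : z ^ 2 = 1 := by
    have : z * b * (z * b) = 1 := by
      rw [← e]
      calc a * b * a⁻¹ * (a * b * a⁻¹) = a * (b * b) * a⁻¹ := by group
        _ = 1 := by rw [hb, mul_one, mul_inv_cancel]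
    rwa [mul_assoc, ← mul_assoc b, hc, mul_assoc, hb, mul_one, ← pow_two] at this
  rw [pow_five_eq h2] at h5
  rw [h5, one_mul, mul_inv_eq_iff_eq_mul] at e
  exact e

theorem exists_out {A : Type*} [Finite A] (h : 4 < Nat.card A) (w x y z : A) :
    ∃ c, c ≠ w ∧ c ≠ x ∧ c ≠ y ∧ c ≠ z := by
  by_contra! k
  have : Function.Surjective ![w, x, y, z] := fun c => by
    by_cases a : c = w
    · exact ⟨0, a.symm⟩
    by_cases b : c = x
    · exact ⟨1, b.symm⟩
    by_cases d : c = y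
    · exact ⟨2, d.symm⟩
    exact ⟨3, (k c a b d).symm⟩
  have := Nat.card_le_card_of_surjective _ this
  rw [Nat.card_fin] at this
  omega

theorem rank_two [IsAlgClosed K] [Finite P] (h2 : (2 : K) ≠ 0) (hP : P ≤ specialLinear (Fin 5) K)
    (hr : ∀ x, ¬ Rf (PM P) x) : PRankLE 2 2 (Bar P) := by
  intro A hA h
  by_contra! hc
  have sq : ∀ a : A, a ^ 2 = 1 := fun a => Subtype.ext (h a a.2)
  have ne : ∀ a b : A, b ≠ a → a * b ≠ 1 := fun a b k e =>
    k (mul_left_cancel (e.trans ((sq a).symm.trans (pow_two a))))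
  obtain ⟨a, a1, -⟩ := exists_out hc (1 : A) 1 1 1
  obtain ⟨b, b1, b2, -⟩ := exists_out hc 1 a 1 1
  obtain ⟨c, c1, c2, c3, c4⟩ := exists_out hc 1 a b (a * b)
  choose s hs hs2 using fun a : A => exists_lift hP (h a a.2)
  have cm : ∀ a b : A, s a * s b = s b * s a := fun a b => lift_comm hP (hs2 b) (by
    rw [hs, hs]; exact congrArg Subtype.val (hA.is_comm.comm a b))
  obtain ⟨B, B', d, hB, hd⟩ := exists_diag_mat (fun a : A => (s a).val.val)
    (fun a b => congrArg (fun g : P => g.val.val) (cm a b))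
    fun a => ⟨2, by exact_mod_cast h2, by rw [pow_two]; exact congrArg (fun g : P => g.val.val) (hs2 a)⟩
  have ml : ∀ g k : P, B' * (g * k).val.val * B = (B' * g.val.val * B) * (B' * k.val.val * B) := fun g k => by
    rw [mul_assoc (B' * g.val.val) B, ← mul_assoc B, ← mul_assoc B, hB, one_mul]
    simp [mul_assoc]
  choose u hu using fun a : A => exists_word (d := d a) (by
    rw [← hd, ← ml, hs2]; simpa using mul_eq_one_comm.1 hB)
  let D : P → (Fin 5 → Bool) → Prop := fun g u => B' * g.val.val * B = diagonal fun i => sg K (u i)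
  have D0 : ∀ a, D (s a) (u a) := fun a => (hd a).trans (congrArg diagonal (hu a))
  have D1 : ∀ {g k v w}, D g v → D k w → D (g * k) (ad v w) := fun {g k v w} e f => by
    change _ = _
    rw [ml, e, f, diagonal_mul_diagonal]
    simp only [ad, sg_xor]
  have W : ∀ {g : P} {v} (a : A), D g v → (g : Bar P) = a → a ≠ 1 → wt v = 2 := fun {g v} a e f k =>
    wt_two h2 hP hr hB g.2 (fun j => k (Subtype.ext (by
      rw [← f, show g = 1 from Subtype.ext j]; rfl))) e
  exact no_code _ (W a (D0 a) (hs a) a1) _ (W b (D0 b) (hs b) b1)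
    (W (a * b) (D1 (D0 a) (D0 b)) (by simp [hs]) (ne _ _ b2)) _ (W c (D0 c) (hs c) c1)
    (W (a * c) (D1 (D0 a) (D0 c)) (by simp [hs]) (ne _ _ c2))
    (W (b * c) (D1 (D0 b) (D0 c)) (by simp [hs]) (ne _ _ c3))
    (W (a * b * c) (D1 (D1 (D0 a) (D0 b)) (D0 c)) (by simp [hs]) (ne _ _ c4))

theorem trace_one [IsAlgClosed K] (h2 : (2 : K) ≠ 0) (hP : P ≤ specialLinear (Fin 5) K)
    (hr : ∀ x, ¬ Rf (PM P) x) {t : GL (Fin 5) K} (ht : t ∈ P) (h : t * t = 1) (h1 : t ≠ 1) :
    trc t = 1 := by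
  have h' : t.val * t.val = 1 := congrArg Units.val h
  obtain ⟨B, B', d, hB, hd⟩ := exists_diag_mat (fun _ : Unit => t.val) (fun _ _ => rfl)
    fun _ => ⟨2, by exact_mod_cast h2, by rwa [pow_two]⟩
  obtain ⟨u, hu⟩ := exists_word (d := d ()) (by
    rw [← hd, mul_assoc (B' * t.val) B, ← mul_assoc B, ← mul_assoc B, hB, one_mul, ← mul_assoc,
      mul_assoc B', h', mul_one, mul_eq_one_comm.1 hB])
  have e := hd ()
  rw [hu] at e
  rw [← sum_sg u (wt_two h2 hP hr hB ht h1 e), ← trace_diagonal, ← e, trace_mul_comm, ← mul_assoc, hB,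
    one_mul, trc_def]

theorem jobSy : JobSy.{u} := by
  intro K _ _ P _ hP
  refine ⟨fun h2 hn S a ha b hb c hc => ?_,
    fun h2 hr => ⟨rank_two h2 hP.le hr, fun t ht => trace_one h2 hP.le hr ht⟩⟩
  obtain ⟨T, rfl⟩ := Sylow.mapSurjective_surjective
    (QuotientGroup.mk'_surjective ((scalars (Fin 5) K).subgroupOf P)) 2 S
  obtain ⟨a, ha, rfl⟩ := ha
  obtain ⟨b, hb, rfl⟩ := hb
  obtain ⟨c, hc, rfl⟩ := hc
  have e := class_two (ρ := pull P.subtype (T : Subgroup P).subtype) h2 T.isPGroup'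
    (fun g x hx e => by
      rcases hn x ⟨hx, _, g.val.2, e⟩ with k | k <;> simp [e, N, k]) ⟨a, ha⟩ ⟨b, hb⟩ ⟨c, hc⟩
  rw [← map_commutatorElement, ← map_commutatorElement,
    show ⁅⁅a, b⁆, c⁆ = 1 from Subtype.ext (Units.ext e), map_one]

end H30.LD
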