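import Cfsg.Agent.H58.LDW
import Cfsg.Agent.H41.LDKit
import Cfsg.Agent.H90.PermMod

/-! LD5-Sy, first part: unitriangular form of a `p`-group in characteristic `p`, and five-dimensional
unitriangular groups without transvections in characteristic two. -/

set_option autoImplicit false

open Matrix Cfsg H41.LD H58.LD
open scoped commutatorElement

namespace H30.LD

variable {K : Type*} [Field K] {n : ℕ} {X : Type*} [Group X]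

theorem exists_family {p : ℕ} [Fact p.Prime] [CharP K p] [Finite X] (hX : IsPGroup p X)
    (ρ : Representation K X (Fin n → K)) (d : ℕ) (hd : d ≤ n) :
    ∃ v : Fin d → Fin n → K, LinearIndependent K v ∧
      ∀ g j, ρ g (v j) - v j ∈ Submodule.span K (v '' {i | i < j}) := by
  induction d with
  | zero => exact ⟨Fin.elim0, linearIndependent_empty_type, fun _ j => j.elim0⟩
  | succ d ih =>
    obtain ⟨v, hv, h⟩ := ih (by omega)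
    set W := Submodule.span K (Set.range v) with hWdef
    have hW : ∀ g, W ≤ W.comap (ρ g) := fun g => by
      rw [hWdef, Submodule.span_le]
      rintro _ ⟨j, rfl⟩
      have h1 : ρ g (v j) - v j ∈ W :=
        Submodule.span_mono (Set.image_subset_range _ _) (h g j)
      simpa using W.add_mem h1 (Submodule.subset_span ⟨j, rfl⟩)
    have : Nontrivial ((Fin n → K) ⧸ W) := Submodule.Quotient.nontrivial_iff.2 fun t => by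
      have e := finrank_span_eq_card hv
      rw [← hWdef, t, finrank_top, Module.finrank_fin_fun, Fintype.card_fin] at e
      omega
    obtain ⟨w, -, w0, hw⟩ :=
      H90.exists_fixed_of_isPGroup hX (ρ.quotient W hW) ⊤ top_ne_bot fun _ _ _ => trivial
    obtain ⟨w, rfl⟩ := W.mkQ_surjective w
    refine ⟨Fin.snoc v w, linearIndependent_fin_snoc.2
      ⟨hv, fun k => w0 ((Submodule.Quotient.mk_eq_zero W).2 k)⟩, fun g j => ?_⟩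
    refine Fin.lastCases ?_ (fun j => ?_) j
    · rw [Fin.snoc_last]
      have h1 : W.mkQ (ρ g w) = W.mkQ w := hw g
      refine Submodule.span_mono ?_ ((Submodule.Quotient.eq W).1 h1)
      rintro _ ⟨i, rfl⟩
      exact ⟨i.castSucc, Fin.castSucc_lt_last i, Fin.snoc_castSucc _ _ _⟩
    · rw [Fin.snoc_castSucc]
      refine Submodule.span_mono ?_ (h g j)
      rintro _ ⟨i, hi, rfl⟩
      exact ⟨i.castSucc, Fin.castSucc_lt_castSucc_iff.2 hi, Fin.snoc_castSucc _ _ _⟩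

/-- upper unitriangular -/
def Uni (ρ : X →* Mt n K) : Prop := ∀ g i j, j ≤ i → ρ g i j = if i = j then 1 else 0

theorem exists_uni {p : ℕ} [Fact p.Prime] [CharP K p] [Finite X] (hX : IsPGroup p X)
    (ρ : X →* Mt n K) : ∃ ρ' : X →* Mt n K, Sim ρ ρ' ∧ Uni ρ' := by
  obtain ⟨v, hv, h⟩ := exists_family hX
    ((toLinAlgEquiv' : Mt n K ≃ₐ[K] _).toMonoidHom.comp ρ) n le_rfl
  have hu : IsUnit (Matrix.of v)ᵀ := linearIndependent_cols_iff_isUnit.1 hv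
  obtain ⟨B', hB⟩ := hu.exists_right_inv
  have hB' := mul_eq_one_comm.1 hB
  obtain ⟨ρ', hρ⟩ := exists_sim ρ hB
  refine ⟨ρ', ⟨_, _, hB, hρ⟩, fun g i j hij => ?_⟩
  have e1 : ∀ k, B' *ᵥ v k = Pi.single k 1 := fun k => by
    ext l
    have := congrFun₂ hB' l k
    rw [one_apply] at this
    rw [Pi.single_apply, ← this]
    rfl
  have e2 : ∀ w ∈ Submodule.span K (v '' {l | l < j}), (B' *ᵥ w) i = 0 := fun w hw => by
    induction hw using Submodule.span_induction with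
    | mem x hx =>
      obtain ⟨l, hl, rfl⟩ := hx
      rw [e1, Pi.single_eq_of_ne (ne_of_gt (lt_of_lt_of_le hl hij))]
    | zero => simp
    | add x y _ _ a b => rw [mulVec_add, Pi.add_apply, a, b, add_zero]
    | smul c x _ a => rw [mulVec_smul, Pi.smul_apply, a, smul_zero]
  have e3 := e2 _ (h g j)
  have e4 : ρ' g i j = (B' *ᵥ (ρ g *ᵥ v j)) i := by
    rw [hρ, mulVec_mulVec]; rfl
  change (B' *ᵥ (ρ g *ᵥ v j - v j)) i = 0 at e3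
  rw [mulVec_sub, Pi.sub_apply, sub_eq_zero, e1, Pi.single_apply] at e3
  rw [e4, e3]

section five

variable {ρ : X →* Mt 5 K}

theorem Uni.eq (h : Uni ρ) (g : X) : ρ g = !![1, ρ g 0 1, ρ g 0 2, ρ g 0 3, ρ g 0 4;
    0, 1, ρ g 1 2, ρ g 1 3, ρ g 1 4; 0, 0, 1, ρ g 2 3, ρ g 2 4; 0, 0, 0, 1, ρ g 3 4; 0, 0, 0, 0, 1] := by
  ext i j
  fin_cases i <;> fin_cases j <;> first | rfl | exact h g _ _ (by decide)

/-- the entries of a product -/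
theorem Uni.mul (h : Uni ρ) (a b : X) :
    ρ (a * b) 0 1 = ρ a 0 1 + ρ b 0 1 ∧ ρ (a * b) 1 2 = ρ a 1 2 + ρ b 1 2 ∧
    ρ (a * b) 2 3 = ρ a 2 3 + ρ b 2 3 ∧ ρ (a * b) 3 4 = ρ a 3 4 + ρ b 3 4 ∧
    ρ (a * b) 0 2 = ρ a 0 2 + ρ a 0 1 * ρ b 1 2 + ρ b 0 2 ∧
    ρ (a * b) 1 3 = ρ a 1 3 + ρ a 1 2 * ρ b 2 3 + ρ b 1 3 ∧
    ρ (a * b) 2 4 = ρ a 2 4 + ρ a 2 3 * ρ b 3 4 + ρ b 2 4 ∧
    ρ (a * b) 0 3 = ρ a 0 3 + ρ a 0 2 * ρ b 2 3 + ρ a 0 1 * ρ b 1 3 + ρ b 0 3 ∧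
    ρ (a * b) 1 4 = ρ a 1 4 + ρ a 1 3 * ρ b 3 4 + ρ a 1 2 * ρ b 2 4 + ρ b 1 4 ∧
    ρ (a * b) 0 4 = ρ a 0 4 + ρ a 0 3 * ρ b 3 4 + ρ a 0 2 * ρ b 2 4 + ρ a 0 1 * ρ b 1 4 + ρ b 0 4 := by
  rw [map_mul]
  generalize hA : ρ a = A
  generalize hB : ρ b = B
  have ha := hA ▸ h a
  have hb := hB ▸ h b
  simp only [mul_apply, Fin.sum_univ_five]
  simp (disch := decide) only [ha, hb]
  simp only [Fin.reduceEq, if_true, if_false, mul_one, one_mul, mul_zero, zero_mul, add_zero, zero_add]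
  refine ⟨?_, ?_, ?_, ?_, ?_, ?_, ?_, ?_, ?_, ?_⟩ <;> ring

/-- the entries of a commutator -/
theorem Uni.comm (h : Uni ρ) (a b : X) :
    (ρ ⁅a, b⁆ 0 1 = 0 ∧ ρ ⁅a, b⁆ 1 2 = 0 ∧ ρ ⁅a, b⁆ 2 3 = 0 ∧ ρ ⁅a, b⁆ 3 4 = 0) ∧
    (ρ ⁅a, b⁆ 0 2 = ρ a 0 1 * ρ b 1 2 - ρ b 0 1 * ρ a 1 2 ∧
    ρ ⁅a, b⁆ 1 3 = ρ a 1 2 * ρ b 2 3 - ρ b 1 2 * ρ a 2 3 ∧
    ρ ⁅a, b⁆ 2 4 = ρ a 2 3 * ρ b 3 4 - ρ b 2 3 * ρ a 3 4) ∧
    (ρ a 0 1 = 0 → ρ a 1 2 = 0 → ρ a 2 3 = 0 → ρ a 3 4 = 0 →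
      ρ ⁅a, b⁆ 0 3 = ρ a 0 2 * ρ b 2 3 - ρ b 0 1 * ρ a 1 3 ∧
      ρ ⁅a, b⁆ 1 4 = ρ a 1 3 * ρ b 3 4 - ρ b 1 2 * ρ a 2 4 ∧
      (ρ a 0 2 = 0 → ρ a 1 3 = 0 → ρ a 2 4 = 0 →
        ρ ⁅a, b⁆ 0 4 = ρ a 0 3 * ρ b 3 4 - ρ b 0 1 * ρ a 1 4)) := by
  have e : ⁅a, b⁆ * (b * a) = a * b := by simp [commutatorElement_def, mul_assoc]
  obtain ⟨a1, a2, a3, a4, a5, a6, a7, a8, a9, a10⟩ := h.mul ⁅a, b⁆ (b * a)
  obtain ⟨b1, b2, b3, b4, b5, b6, b7, b8, b9, b10⟩ := h.mul b a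
  obtain ⟨c1, c2, c3, c4, c5, c6, c7, c8, c9, c10⟩ := h.mul a b
  rw [e] at a1 a2 a3 a4 a5 a6 a7 a8 a9 a10
  have d1 : ρ ⁅a, b⁆ 0 1 = 0 := by linear_combination c1 - a1 - b1
  have d2 : ρ ⁅a, b⁆ 1 2 = 0 := by linear_combination c2 - a2 - b2
  have d3 : ρ ⁅a, b⁆ 2 3 = 0 := by linear_combination c3 - a3 - b3
  have d4 : ρ ⁅a, b⁆ 3 4 = 0 := by linear_combination c4 - a4 - b4
  simp only [d1, d2, d3, d4, zero_mul, add_zero] at a5 a6 a7 a8 a9 a10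
  have d5 : ρ ⁅a, b⁆ 0 2 = ρ a 0 1 * ρ b 1 2 - ρ b 0 1 * ρ a 1 2 := by linear_combination c5 - a5 - b5
  have d6 : ρ ⁅a, b⁆ 1 3 = ρ a 1 2 * ρ b 2 3 - ρ b 1 2 * ρ a 2 3 := by linear_combination c6 - a6 - b6
  have d7 : ρ ⁅a, b⁆ 2 4 = ρ a 2 3 * ρ b 3 4 - ρ b 2 3 * ρ a 3 4 := by linear_combination c7 - a7 - b7
  refine ⟨⟨d1, d2, d3, d4⟩, ⟨d5, d6, d7⟩, fun z1 z2 z3 z4 => ?_⟩
  simp only [z1, z2, z3, z4, zero_mul, mul_zero, add_zero, sub_zero] at d5 d6 d7 b8 b9 b10 c8 c9 c10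
  simp only [d5, d6, d7, zero_mul, add_zero] at a8 a9 a10
  have d8 : ρ ⁅a, b⁆ 0 3 = ρ a 0 2 * ρ b 2 3 - ρ b 0 1 * ρ a 1 3 := by linear_combination c8 - a8 - b8
  refine ⟨d8, by linear_combination c9 - a9 - b9, fun y1 y2 y3 => ?_⟩
  simp only [y1, y2, y3, zero_mul, mul_zero, add_zero, sub_zero] at d8 b10 c10
  simp only [d8, zero_mul, add_zero] at a10
  linear_combination c10 - a10 - b10

theorem Uni.rk (h : Uni ρ) (hn : NT ρ) {g : X} (u φ : Fin 5 → K) (u3 : u 3 = 0) (u4 : u 4 = 0)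
    (u2 : u 2 = 0) (f0 : φ 0 = 0) (f1 : φ 1 = 0) (f2 : φ 2 = 0) (z1 : ρ g 0 1 = 0) (z2 : ρ g 1 2 = 0)
    (z3 : ρ g 2 3 = 0) (z4 : ρ g 3 4 = 0) (z5 : ρ g 0 2 = 0) (z7 : ρ g 2 4 = 0)
    (e1 : ρ g 0 3 = u 0 * φ 3) (e2 : ρ g 0 4 = u 0 * φ 4) (e3 : ρ g 1 3 = u 1 * φ 3)
    (e4 : ρ g 1 4 = u 1 * φ 4) : ρ g = 1 := by
  refine hn g (u, φ) (by simp [dotProduct, Fin.sum_univ_five, *]) ?_
  rw [h.eq g]
  ext i j
  fin_cases i <;> fin_cases j <;> simp [N, vecMulVec_apply, *]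

theorem Uni.class_two (h2 : (2 : K) = 0) (h : Uni ρ) (hn : NT ρ) (a b c : X) : ρ ⁅⁅a, b⁆, c⁆ = 1 := by
  by_contra hz
  obtain ⟨⟨x1, x2, x3, x4⟩, ⟨x5, x6, x7⟩, -⟩ := h.comm a b
  obtain ⟨⟨z1, z2, z3, z4⟩, ⟨z5, z6, z7⟩, z0⟩ := h.comm ⁅a, b⁆ c
  obtain ⟨z8, -, -⟩ := z0 x1 x2 x3 x4
  clear z0
  simp only [x1, x2, x3, x4, zero_mul, mul_zero, sub_zero] at z5 z6 z7
  generalize ⁅⁅a, b⁆, c⁆ = z at *
  have hal : ρ z 0 3 ≠ 0 := fun e => hz (h.rk hn ![ρ z 0 4, ρ z 1 4, 0, 0, 0] ![0, 0, 0, 0, 1]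
    rfl rfl rfl rfl rfl rfl z1 z2 z3 z4 z5 z7 (by simpa using e) (by simp) (by simpa using z6) (by simp))
  have hbe : ρ z 1 4 ≠ 0 := fun e => hz (h.rk hn ![1, 0, 0, 0, 0] ![0, 0, 0, ρ z 0 3, ρ z 0 4]
    rfl rfl rfl rfl rfl rfl z1 z2 z3 z4 z5 z7 (by simp) (by simp) (by simpa using z6) (by simpa using e))
  have t4 : ∀ g, ρ g 0 1 = 0 → ρ g 1 2 = 0 → ρ g 2 3 = 0 → ρ g 3 4 = 0 → ρ g 0 2 = 0 → ρ g 1 3 = 0 →
      ρ g 2 4 = 0 → ρ g 0 3 = 0 → ρ g 1 4 = 0 → ρ g 0 4 = 0 := fun g y1 y2 y3 y4 y5 y6 y7 y8 y9 => by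
    rw [h.rk hn (g := g) ![ρ g 0 4, 0, 0, 0, 0] ![0, 0, 0, 0, 1] rfl rfl rfl rfl rfl rfl y1 y2 y3 y4 y5
      y7 (by simpa using y8) (by simp) (by simpa using y6) (by simpa using y9)]
    rfl
  have r1 : ∀ g, ρ z 0 3 * ρ g 3 4 = ρ g 0 1 * ρ z 1 4 := fun g => by
    obtain ⟨⟨y1, y2, y3, y4⟩, ⟨y5, y6, y7⟩, y⟩ := h.comm z g
    obtain ⟨y8, y9, y⟩ := y z1 z2 z3 z4
    simp only [z1, z2, z3, z4, z5, z6, z7, zero_mul, mul_zero, sub_zero] at y5 y6 y7 y8 y9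
    rw [← sub_eq_zero, ← y z5 z6 z7]
    exact t4 _ y1 y2 y3 y4 y5 y6 y7 y8 y9
  have r2 : ∀ g, ρ g 1 2 * ρ g 2 3 = 0 := fun g => by
    by_contra hg
    obtain ⟨a1, a2, a3, a4, a5, a6, a7, a8, a9, a10⟩ := h.mul g g
    have dd : ∀ t : K, t + t = 0 := fun t => by rw [← two_mul, h2, zero_mul]
    rw [dd] at a1 a2 a3 a4
    replace a5 : ρ (g * g) 0 2 = ρ g 0 1 * ρ g 1 2 := by linear_combination a5 + dd (ρ g 0 2)
    replace a6 : ρ (g * g) 1 3 = ρ g 1 2 * ρ g 2 3 := by linear_combination a6 + dd (ρ g 1 3)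
    replace a7 : ρ (g * g) 2 4 = ρ g 2 3 * ρ g 3 4 := by linear_combination a7 + dd (ρ g 2 4)
    obtain ⟨b1, b2, b3, b4, b5, b6, b7, b8, b9, b10⟩ := h.mul (g * g) (g * g)
    simp only [a1, a2, a3, a4, zero_mul, mul_zero, add_zero, dd] at b1 b2 b3 b4 b5 b6 b7 b8 b9 b10
    have k := t4 _ b1 b2 b3 b4 b5 b6 b7 b8 b9
    have k1 : ρ g 0 1 * ρ g 3 4 = 0 := by
      refine (mul_eq_zero.1 (?_ : ρ g 1 2 * ρ g 2 3 * _ = 0)).resolve_left hg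
      rw [a5, a7] at b10
      linear_combination k - b10 - dd (ρ (g * g) 0 4)
    have k2 : ρ g 0 1 = 0 := by
      rcases mul_eq_zero.1 k1 with e | e
      · exact e
      · have := r1 g
        rw [e, mul_zero] at this
        exact (mul_eq_zero.1 this.symm).resolve_right hbe
    have k3 : ρ g 3 4 = 0 := by
      have := r1 g
      rw [k2, zero_mul] at this
      exact (mul_eq_zero.1 this).resolve_left hal
    simp only [k2, k3, zero_mul, mul_zero, add_zero] at a5 a7 a8 a9 a10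
    have k4 := h.rk hn (g := g * g) ![ρ g 0 2, ρ g 1 2, 0, 0, 0] ![0, 0, 0, ρ g 2 3, ρ g 2 4]
      rfl rfl rfl rfl rfl rfl a1 a2 a3 a4 a5 a7
      (by change _ = ρ g 0 2 * ρ g 2 3; linear_combination a8 + dd (ρ g 0 3))
      (by change _ = ρ g 0 2 * ρ g 2 4; linear_combination a10 + dd (ρ g 0 4)) a6
      (by change _ = ρ g 1 2 * ρ g 2 4; linear_combination a9 + dd (ρ g 1 4))
    rw [k4] at a6
    exact hg a6.symm
  have r3 : ∀ g k, ρ g 1 2 * ρ k 2 3 = 0 := fun g k => by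
    by_contra hg
    obtain ⟨-, a2, a3, -⟩ := h.mul g k
    have e := r2 (g * k)
    rw [a2, a3, (mul_eq_zero.1 (r2 g)).resolve_left (left_ne_zero_of_mul hg),
      (mul_eq_zero.1 (r2 k)).resolve_right (right_ne_zero_of_mul hg), add_zero, zero_add] at e
    exact hg e
  apply hal
  rw [z8, x5, x6]
  linear_combination ρ a 0 1 * r3 b c - ρ b 0 1 * r3 a c - ρ c 0 1 * r3 a b + ρ c 0 1 * r3 b a

end five

theorem class_two {ρ : X →* Mt 5 K} [Finite X] (h2 : (2 : K) = 0) (hX : IsPGroup 2 X) (hn : NT ρ)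
    (a b c : X) : ρ ⁅⁅a, b⁆, c⁆ = 1 := by
  haveI : CharP K 2 := CharTwo.of_one_ne_zero_of_two_eq_zero one_ne_zero h2
  obtain ⟨ρ', hs, hu⟩ := exists_uni hX ρ
  exact hs.symm.eq_one (hu.class_two h2 (hs.nt hn) a b c)

end H30.LD
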