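import Cfsg.Agent.H41.LDSpec
import Cfsg.Agent.H66.SzTri
import Cfsg.Agent.H66.SzInst

/-! LD5, job Sz: traces of Suzuki groups in characteristic two are invariant under inversion. -/

set_option autoImplicit false

namespace H30.LD

open Cfsg H19 H41.LD

universe u

theorem jobSz : JobSz.{u} := by
  rintro Γ _ ⟨F, _, _, m, hm, hF, ⟨e⟩⟩ K _ _ _ ρ - _ ⟨g, rfl⟩
  have hT := H66.titsOf_isFin F hm hF
  by_cases h : e g ^ 4 = 1
  · have k : ∀ g : Γ, g ^ 4 = 1 → trc (ρ g) ^ 2 ^ 2 = trc (1 : GL (Fin 5) K) := fun g hg => by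
      rw [trc, ← trace_pow_char_pow, ← Units.val_pow_eq_pow_val, ← map_pow, show 2 ^ 2 = 4 from rfl, hg,
        map_one]; rfl
    rw [← map_pow, map_eq_one_iff e e.injective] at h
    rw [← map_inv]
    exact (iterateFrobenius K 2 2).injective ((k _ (by rw [inv_pow, h, inv_one])).trans (k g h).symm)
  · obtain ⟨c, hc⟩ := isConj_iff.1 ((H66.modelB hT).isConj_of_tr hT
      (fun k => h (((H66.modelB hT).tr_eq_zero_iff hT).1 k)) ((H66.modelB hT).tr_inv (e g)))
    have := congrArg (fun x => ρ (e.symm x)) hc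
    simp only [map_mul, map_inv, e.symm_apply_apply] at this
    rw [← this, trc, trc, Units.val_mul, Units.val_mul, Matrix.trace_mul_cycle, Units.inv_mul, one_mul]

end H30.LD
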