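import Cfsg.Agent.H30.SgR2a

/-! SG-R2: the second relation. -/

set_option autoImplicit false
set_option maxHeartbeats 400000

namespace H30.SgR

open Finsupp MvPolynomial Module H53.SG
open scoped Classical

universe v

variable {K : Type v} [Field K] {p e n : ℕ} [NeZero (e * n)]

/-- `M` lies one carry at `v` above `m` -/
def Lv (p : ℕ) (m : Mon e n) (v : Vr e n) (M : Mon e n) : Prop :=
  cd (M + single (nx v) 1) = cd (m + single v p)

/-- the monomials in `W` -/
def PW (p : ℕ) (s : ZMod e) (m M : Mon e n) : Prop :=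
  (cd M ≠ cd m ∧ ∀ v, cl v.2 = s → ¬ Lv p m v M) ∨ (cd M = cd m ∧ ¬ Red p M) ∨
    ∃ v, cl v.2 ≠ s ∧ p ≤ M v

/-- the space `W` -/
noncomputable def WW (K : Type v) [Field K] (p : ℕ) (s : ZMod e) (m : Mon e n) (D : ℕ) :
    Submodule K (MvPolynomial (Vr e n) K) :=
  Sp K (PW p s m) ⊔ Submodule.span K {Z | ∃ m' v, cl v.2 = s ∧ dg m' + p = D ∧
    Z = monomial (m' + single v p) (1 : K) - monomial (m' + single (nx v) 1) 1}

variable {s : ZMod e} {m : Mon e n} {D : ℕ}

theorem Lv.dg {v : Vr e n} {M : Mon e n} (h : Lv p m v M) : dg M + 1 = dg m + p := by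
  simpa [dg_add, dg_single] using dg_of_cd h

omit [NeZero (e * n)] in
theorem gen_eq (m' : Mon e n) (v : Vr e n) :
    monomial (m' + single v p) (1 : K) - monomial (m' + single (nx v) 1) 1 =
      monomial m' 1 * (X v ^ p - X (nx v)) := by
  rw [monomial_add_single, monomial_add_single, pow_one, mul_sub]

theorem gen_mem {m' : Mon e n} {v : Vr e n} (h1 : cl v.2 = s) (h2 : dg m' + p = D) :
    monomial (m' + single v p) (1 : K) - monomial (m' + single (nx v) 1) 1 ∈ WW K p s m D :=
  Submodule.mem_sup_right (Submodule.subset_span ⟨m', v, h1, h2, rfl⟩)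

theorem mul_mem {H : MvPolynomial (Vr e n) K} {v : Vr e n} (h1 : cl v.2 = s)
    (h2 : ∀ M, coeff M H ≠ 0 → dg M + p = D) : H * (X v ^ p - X (nx v)) ∈ WW K p s m D :=
  map_mem (LinearMap.mulRight K (X v ^ p - X (nx v))) fun M hM => by
    rw [LinearMap.mulRight_apply, ← gen_eq]
    exact gen_mem h1 (h2 M hM)

theorem stable {T : MvPolynomial (Vr e n) K →ₗ[K] MvPolynomial (Vr e n) K} (h : Pres p T)
    (h3 : ∀ m' v, cl v.2 = s → dg m' + p = D →
      T (monomial (m' + single v p) (1 : K) - monomial (m' + single (nx v) 1) 1) ∈ WW K p s m D) :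
    ∀ G ∈ WW K p s m D, T G ∈ WW K p s m D := by
  have : WW K p s m D ≤ (WW K p s m D).comap T := by
    refine sup_le (fun G hG => Submodule.mem_sup_left fun M' hM' => ?_) (Submodule.span_le.2 ?_)
    · obtain ⟨M, h1, h2⟩ := coeff_map_ne T hM'
      have hc := h.cd_eq h2
      rcases hG M h1 with ⟨a1, a2⟩ | ⟨a1, a2⟩ | ⟨v, a1, a2⟩
      · refine .inl ⟨hc ▸ a1, fun v hv hL => a2 v hv ?_⟩
        rw [Lv, ← hL]
        funext k s
        rw [cd_add, cd_add, hc]
      · obtain ⟨v, hv⟩ := not_forall.1 a2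
        obtain ⟨t, -, ht⟩ := h.big M M' v (not_lt.1 hv) h2
        exact .inr (.inl ⟨hc ▸ a1, fun hr => (hr _).not_ge ht⟩)
      · obtain ⟨t, ht1, ht⟩ := h.big M M' v a2 h2
        exact .inr (.inr ⟨(v.1, t), ht1 ▸ a1, ht⟩)
    · rintro _ ⟨m', v, h1, h2, rfl⟩
      exact h3 m' v h1 h2
  exact this

theorem stable_sg [CharP K p] (hp : p.Prime) {A : Matrix (ZMod (e * n)) (ZMod (e * n)) K}
    (h : ∀ t' t, A t' t ≠ 0 → cl t' = cl t) (hf : ∀ t' t, A (t' + 1) (t + 1) = A t' t ^ p) :
    ∀ G ∈ WW K p s m D, sg A G ∈ WW K p s m D :=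
  stable (pres_sg hp h) fun m' v h1 h2 => by
    have e1 : sg A (X (nx v)) = ∑ t, A t v.2 ^ p • X (nx (v.1, t)) := by
      rw [sg_X]
      exact (Fintype.sum_equiv (Equiv.addRight 1) _ _ fun t => by simp [nx, hf]).symm
    rw [gen_eq, AlgHom.toLinearMap_apply, map_mul, map_sub, sg_pow hp, e1,
      ← Finset.sum_sub_distrib, Finset.mul_sum]
    refine Submodule.sum_mem _ fun t _ => ?_
    rw [← smul_sub, mul_smul_comm]
    by_cases h0 : A t v.2 = 0
    · simp [h0, hp.ne_zero]
    exact Submodule.smul_mem _ _ (mul_mem ((h _ _ h0).trans h1) fun M hM => by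
      rw [(pres_sg hp h).dg_eq hM, h2])

theorem stable_E [CharP K p] (he : 2 ≤ e) {a b : ZMod (e * n)} (ha : cl a = s) (hb : cl b = s) :
    ∀ G ∈ WW K p s m D, E K a b G ∈ WW K p s m D :=
  stable (pres_E (ha.trans hb.symm)) fun m' v h1 h2 => by
    haveI : Fact (1 < e) := ⟨he⟩
    have h3 : (nx v).2 ≠ b := fun e => by
      have := congrArg cl e
      rw [nx, cl_add, cl_one, h1, hb] at this
      exact one_ne_zero (add_eq_left.1 this)
    rw [gen_eq, E_mul, map_sub, E_pow, E_X a h3, sub_zero, mul_zero, add_zero]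
    exact mul_mem h1 fun M hM => by rw [(pres_E (p := p) (ha.trans hb.symm)).dg_eq hM, h2]

theorem stable_dop {f : Mon e n → K}
    (hf : ∀ m v, cl v.2 = s → f (m + single v p) = f (m + single (nx v) 1)) :
    ∀ G ∈ WW K p s m D, dop f G ∈ WW K p s m D :=
  stable (pres_dop f) fun m' v h1 h2 => by
    have := Submodule.smul_mem _ (f (m' + single v p)) (gen_mem (K := K) (m := m) h1 h2)
    rwa [smul_sub, smul_monomial, smul_monomial, smul_eq_mul, ← dop_monomial, hf m' v h1,
      ← dop_monomial, ← map_sub] at this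

omit [NeZero (e * n)] in
theorem up_add {v : Vr e n} (h : m (nx v) ≠ 0) :
    up p m v + single (nx v) 1 = m + single v p := by
  rw [up, add_right_comm, tsub_add_cancel_of_le (single_le_iff.2 (Nat.one_le_iff_ne_zero.2 h))]

omit [NeZero (e * n)] in
theorem up_big (hm : Red p m) {v v' : Vr e n} (h : p ≤ up p m v v') : v' = v := by
  by_contra h1
  have := hm v'
  simp only [up, Finsupp.add_apply, Finsupp.tsub_apply, single_eq_of_ne h1] at h
  omega

/-- the functional `ζ` -/
noncomputable def zeta (K : Type v) [Field K] (p : ℕ) (s : ZMod e) (m : Mon e n) :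
    MvPolynomial (Vr e n) K →ₗ[K] K :=
  lcoeff K m + ∑ v with cl v.2 = s, if m (nx v) = 0 then 0 else lcoeff K (up p m v)

theorem zeta_apply (G : MvPolynomial (Vr e n) K) : zeta K p s m G =
    coeff m G + ∑ v with cl v.2 = s, if m (nx v) = 0 then 0 else coeff (up p m v) G := by
  rw [zeta, LinearMap.add_apply, LinearMap.sum_apply]
  congr 1
  exact Finset.sum_congr rfl fun v _ => by split_ifs <;> rfl

theorem zeta_W (hp : 1 < p) (hm : Red p m) (hD : dg m + (p - 1) = D) {G : MvPolynomial (Vr e n) K}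
    (h : G ∈ WW K p s m D) : zeta K p s m G = 0 := by
  have hL : ∀ v, m (nx v) ≠ 0 → Lv p m v (up p m v) := fun v hv => congrArg cd (up_add hv)
  have : WW K p s m D ≤ LinearMap.ker (zeta K p s m) := by
    refine sup_le (fun G hG => ?_) (Submodule.span_le.2 ?_)
    · have h1 : coeff m G = 0 := by
        by_contra h1
        rcases hG m h1 with ⟨a1, -⟩ | ⟨-, a2⟩ | ⟨v, -, a2⟩
        exacts [a1 rfl, a2 hm, (hm v).not_ge a2]
      rw [LinearMap.mem_ker, zeta_apply, h1, zero_add]
      refine Finset.sum_eq_zero fun v hv => ?_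
      split_ifs with h2
      · rfl
      by_contra h3
      rcases hG _ h3 with ⟨-, a2⟩ | ⟨a1, -⟩ | ⟨v', a1, a2⟩
      · exact a2 v (Finset.mem_filter.1 hv).2 (hL v h2)
      · have := (hL v h2).dg
        rw [dg_of_cd a1] at this
        omega
      · exact a1 (up_big hm a2 ▸ (Finset.mem_filter.1 hv).2)
    · rintro _ ⟨m', v, h1, h2, rfl⟩
      have e1 : m' + single v p ≠ m := fun e => (hm v).not_ge (by simp [← e])
      have e2 : ∀ v', m (nx v') ≠ 0 → m' + single (nx v) 1 ≠ up p m v' := fun v' h3 e => by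
        have := (hL v' h3).dg
        rw [← e, dg_add, dg_single] at this
        omega
      rw [SetLike.mem_coe, LinearMap.mem_ker, zeta_apply, Finset.sum_eq_single_of_mem v
        (by simp [h1])]
      · simp only [coeff_sub, coeff_monomial, if_neg e1]
        by_cases h3 : m' + single (nx v) 1 = m
        · have h4 : m (nx v) ≠ 0 := by simp [← h3]
          have h5 : m' + single v p = up p m v := add_right_cancel (b := single (nx v) 1) (by
            rw [up_add h4, add_right_comm, h3])
          rw [if_pos h3, if_neg h4, if_pos h5, if_neg (e2 v h4)]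
          ring
        · rw [if_neg h3]
          split_ifs with h4 h5 h6 h7
          · ring
          · exact absurd h6 (e2 v h4)
          · refine absurd (add_right_cancel (b := single v p) ?_) h3
            rw [add_right_comm, h5, up_add h4]
          · exact absurd h7 (e2 v h4)
          · ring
      · intro v' _ hne
        split_ifs with h4
        · rfl
        rw [coeff_sub, coeff_monomial, coeff_monomial, if_neg (e2 v' h4), if_neg, sub_zero]
        exact fun e => hne (up_big hm (v := v') (v' := v) (by simp [← e])).symm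
  exact this h

/-- the correction -/
noncomputable def tau (K : Type v) [Field K] (p : ℕ) (s : ZMod e) (m : Mon e n) :
    MvPolynomial (Vr e n) K →ₗ[K] MvPolynomial (Vr e n) K :=
  (basisMonomials (Vr e n) K).constr K fun M => ∑ v, if cl v.2 ≠ s ∧ p ≤ M v ∧
    Red p (M - single v p + single (nx v) 1) ∧ Lv p m v M then
      monomial (M - single v p + single (nx v) 1) 1 else 0

theorem tau_monomial (M : Mon e n) : tau K p s m (monomial M 1) = ∑ v, if cl v.2 ≠ s ∧ p ≤ M v ∧
    Red p (M - single v p + single (nx v) 1) ∧ Lv p m v M then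
      monomial (M - single v p + single (nx v) 1) 1 else 0 := by
  have := (basisMonomials (Vr e n) K).constr_basis K (fun M => ∑ v, if cl v.2 ≠ s ∧ p ≤ M v ∧
    Red p (M - single v p + single (nx v) 1) ∧ Lv p m v M then
      monomial (M - single v p + single (nx v) 1) (1 : K) else 0) M
  rwa [coe_basisMonomials] at this

theorem tau_gen (hp : 1 < p) (hD : dg m + (p - 1) = D) {G : MvPolynomial (Vr e n) K}
    (h : G ∈ SD K p e n D) : G + tau K p s m G ∈ WW K p s m D := by
  have : SD K p e n D ≤ (WW K p s m D).comap (LinearMap.id + tau K p s m) := by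
    refine Submodule.span_le.2 ?_
    rintro _ ⟨m', v, h1, rfl⟩
    have hB : ∀ v', ¬ Lv p m v' (m' + single (nx v) 1) := fun v' h => by
      have := h.dg
      rw [dg_add, dg_single] at this
      omega
    have t1 : tau K p s m (monomial (m' + single (nx v) 1) 1) = 0 := by
      rw [tau_monomial]
      exact Finset.sum_eq_zero fun v' _ => if_neg fun h => hB v' h.2.2.2
    have t2 : tau K p s m (monomial (m' + single v p) 1) =
        if cl v.2 ≠ s ∧ Red p (m' + single (nx v) 1) ∧ Lv p m v (m' + single v p) then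
          monomial (m' + single (nx v) 1) 1 else 0 := by
      rw [tau_monomial, Finset.sum_eq_single v]
      · simp
      · intro v' _ hne
        refine if_neg fun h => (h.2.2.1 v).not_ge ?_
        simp only [Finsupp.add_apply, Finsupp.tsub_apply, single_eq_of_ne hne.symm, single_eq_same]
        omega
      · simp
    rw [SetLike.mem_coe, Submodule.mem_comap, LinearMap.add_apply, LinearMap.id_apply]
    rw [map_sub, t1, t2, sub_zero]
    split_ifs with h2
    · rw [sub_add_cancel]
      exact Submodule.mem_sup_left (mono_mem_Sp (.inr (.inr ⟨v, h2.1, by simp⟩)) _)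
    rw [add_zero]
    by_cases h3 : cl v.2 = s ∧ dg m' + p = D
    · exact gen_mem h3.1 h3.2
    refine Submodule.mem_sup_left (sub_mem (mono_mem_Sp ?_ _) (mono_mem_Sp ?_ _))
    · by_cases h4 : cl v.2 = s
      · by_cases h5 : cd (m' + single v p) = cd m
        · exact .inr (.inl ⟨h5, fun hr => (hr v).not_ge (by simp)⟩)
        · refine .inl ⟨h5, fun v' _ h => h3 ⟨h4, ?_⟩⟩
          have := h.dg
          rw [dg_add, dg_single] at this
          omega
      · exact .inr (.inr ⟨v, h4, by simp⟩)
    · by_cases h5 : cd (m' + single (nx v) 1) = cd m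
      · refine .inr (.inl ⟨h5, fun hr => h2 ⟨fun h4 => h3 ⟨h4, ?_⟩, hr, ?_⟩⟩)
        · have := dg_of_cd h5
          rw [dg_add, dg_single] at this
          omega
        · funext k s
          rw [add_right_comm, cd_add, h5, cd_add]
      · exact .inl ⟨h5, fun v' _ => hB v'⟩
  exact this h

theorem jobR2 : JobR.{v} (fun p c D => R2 p c D) := by
  intro hM0 hOp hNF hU p e n r _ K _ _ _ 𝒜 θ Φ D hp hn h3 hK dat hev sup mode he a b m hab hcl
    hm hD hC2 hNo
  obtain ⟨f, dia⟩ := hU p e n r K _ D hp h3 sup mode a b hab hcl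
  have hΦ : dop f Φ = 0 := by
    ext M
    rw [coeff_dop, coeff_zero]
    by_cases h : coeff M Φ = 0
    · rw [h, mul_zero]
    · rw [dia.zero M h, zero_mul]
  have hG : ∀ A ∈ 𝒜, sg A Φ - Φ ∈ WW K p (cl a) m D := fun A hA => by
    have hc : ∀ M, coeff M (sg A Φ - Φ) ≠ 0 → ∃ M0, coeff M0 Φ ≠ 0 ∧ cd M = cd M0 := fun M h => by
      by_cases h1 : coeff M Φ = 0
      · obtain ⟨M0, h2, h3⟩ := coeff_map_ne (sg A).toLinearMap (G := Φ) (M' := M)
          (by simpa [h1] using h)
        exact ⟨M0, h2, (pres_sg hp (dat.cls A hA)).cd_eq h3⟩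
      · exact ⟨M, h1, rfl⟩
    have h1 := tau_gen (s := cl a) hp.one_lt hD (hNF p e n K hp hK D (sg A Φ - Φ) (fun M h => by
      obtain ⟨M0, h2, h3⟩ := hc M h
      exact dg_of_cd h3 ▸ sup.deg M0 h2) fun x y => by
        have := hev A hA x y
        simp only [ev, map_sub] at this ⊢
        rw [this, sub_self])
    have h2 : tau K p (cl a) m (sg A Φ - Φ) ∈ (⊥ : Submodule K _) := map_mem _ fun M h => by
      obtain ⟨M0, h2, h3⟩ := hc M h
      rw [tau_monomial, Submodule.mem_bot]
      refine Finset.sum_eq_zero fun v _ => if_neg fun h4 => hNo M0 h2 v.1 (cl v.2) h4.1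
        fun k' s'' => ?_
      have := congrFun (congrFun h4.2.2.2 k') s''
      rwa [cd_add, cd_add, cd_single, cd_single, h3, nx, cl_add, cl_one] at this
    rwa [(Submodule.mem_bot K).1 h2, add_zero] at h1
  have key := zeta_W hp.one_lt hm hD (hOp hM0 p e n r K 𝒜 θ (cl a) (WW K p (cl a) m D) Φ f hp hn
    (by rcases mode with ⟨h, -⟩ | ⟨h, -⟩ <;> omega) dat
    (fun A hA => stable_sg hp (dat.cls A hA) (dat.frob A hA)) (fun a' b' => stable_E he) hG dia.fd
    (stable_dop (dia.step he)) (hΦ ▸ zero_mem _) a b rfl hcl.symm)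
  rcases dia.c2 he m hC2 with h | ⟨h1, h2⟩
  · refine (mul_eq_zero (M₀ := K) (a := f m)).1 (Eq.trans ?_ key) |>.resolve_left h
    rw [zeta_apply, mul_add, Finset.mul_sum, coeff_dop, coeff_E hab]
    congr 1
    refine Finset.sum_congr rfl fun v hv => ?_
    split_ifs with h4
    · rw [mul_zero]
    · rw [coeff_dop, coeff_E hab, up, dia.step he _ v (Finset.mem_filter.1 hv).2,
        tsub_add_cancel_of_le (single_le_iff.2 (Nat.one_le_iff_ne_zero.2 h4))]
  · rw [h1, zero_add]
    refine Finset.sum_eq_zero fun v hv => ?_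
    split_ifs with h4
    · rfl
    · exact h2 v (Finset.mem_filter.1 hv).2 h4

end H30.SgR
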