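import Cfsg.Agent.H30.SgRed

/-! SG-R2, part 1: how the operators act on monomials. -/

set_option autoImplicit false
set_option maxHeartbeats 400000

namespace H30.SgR

open Finsupp MvPolynomial Module H53.SG
open scoped Classical

universe v

variable {K : Type v} [Field K] {p e n : ℕ}

/-- polynomials all of whose monomials satisfy `P` -/
def Sp (K : Type v) [Field K] (P : Mon e n → Prop) : Submodule K (MvPolynomial (Vr e n) K) where
  carrier := {G | ∀ M, coeff M G ≠ 0 → P M}
  zero_mem' := fun M h => absurd rfl h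
  add_mem' := fun {a b} ha hb M h => by
    by_cases h1 : coeff M a = 0
    · exact hb M (by simpa [h1] using h)
    · exact ha M h1
  smul_mem' := fun c a ha M h => ha M fun h1 => h (by simp [h1])

theorem mono_mem_Sp {P : Mon e n → Prop} {M : Mon e n} (h : P M) (c : K) :
    monomial M c ∈ Sp K P := fun M' h' => by
  rw [coeff_monomial] at h'
  split_ifs at h' with h1
  · exact h1 ▸ h
  · exact absurd rfl h'

theorem map_mem (T : MvPolynomial (Vr e n) K →ₗ[K] MvPolynomial (Vr e n) K)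
    {U : Submodule K (MvPolynomial (Vr e n) K)} {G : MvPolynomial (Vr e n) K}
    (h : ∀ M, coeff M G ≠ 0 → T (monomial M 1) ∈ U) : T G ∈ U := by
  rw [G.as_sum, map_sum]
  refine U.sum_mem fun M hM => ?_
  have := U.smul_mem (coeff M G) (h M (MvPolynomial.mem_support_iff.1 hM))
  rwa [← map_smul, smul_monomial, smul_eq_mul, mul_one] at this

theorem coeff_map_ne (T : MvPolynomial (Vr e n) K →ₗ[K] MvPolynomial (Vr e n) K)
    {G : MvPolynomial (Vr e n) K} {M' : Mon e n} (h : coeff M' (T G) ≠ 0) :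
    ∃ M, coeff M G ≠ 0 ∧ coeff M' (T (monomial M 1)) ≠ 0 :=
  map_mem T (U := Sp K fun M' => ∃ M, coeff M G ≠ 0 ∧ coeff M' (T (monomial M 1)) ≠ 0)
    (fun M h1 _ h2 => ⟨M, h1, h2⟩) M' h

theorem split_big {M : Mon e n} {v : Vr e n} {j : ℕ} (h : j ≤ M v) : ∃ m, M = m + single v j :=
  ⟨M - single v j, (tsub_add_cancel_of_le (single_le_iff.2 h)).symm⟩

theorem coeff_mul_pow {H : MvPolynomial (Vr e n) K} {v : Vr e n} {M : Mon e n}
    (h : coeff M (H * X v ^ p) ≠ 0) : p ≤ M v := by
  rw [X_pow_eq_monomial, coeff_mul_monomial'] at h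
  by_contra h1
  exact h (if_neg fun h2 => h1 (single_le_iff.1 h2))

/-- the operator preserves class degrees and large exponents -/
structure Pres (p : ℕ) (T : MvPolynomial (Vr e n) K →ₗ[K] MvPolynomial (Vr e n) K) : Prop where
  wt : ∀ w : Vr e n → ℕ, (∀ k t t', cl t = cl t' → w (k, t) = w (k, t')) → ∀ M M',
    coeff M' (T (monomial M 1)) ≠ 0 → weight w M' = weight w M
  big : ∀ M M' v, p ≤ M v → coeff M' (T (monomial M 1)) ≠ 0 → ∃ t, cl t = cl v.2 ∧ p ≤ M' (v.1, t)

theorem pres_dop (f : Mon e n → K) : Pres p (dop f) := by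
  have h : ∀ M M', coeff M' (dop f (monomial M 1)) ≠ 0 → M' = M := fun M M' h => by
    rw [dop_monomial, coeff_monomial] at h
    by_contra h1
    exact h (if_neg (Ne.symm h1))
  exact ⟨fun w _ M M' h1 => by rw [h M M' h1], fun M M' v h1 h2 => ⟨v.2, rfl, h M M' h2 ▸ h1⟩⟩

theorem E_mul (a b : ZMod (e * n)) (G H : MvPolynomial (Vr e n) K) :
    E K a b (G * H) = E K a b G * H + G * E K a b H := by
  simp only [E_apply, pderiv_mul, Fintype.sum_bool]
  ring

theorem E_pow [CharP K p] (a b : ZMod (e * n)) (v : Vr e n) : E K a b (X v ^ p) = 0 := by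
  simp [E_apply, pderiv_pow]

theorem E_X (a : ZMod (e * n)) {b : ZMod (e * n)} {v : Vr e n} (h : v.2 ≠ b) :
    E K a b (X v) = 0 := by
  have : ∀ k : Bool, v ≠ (k, b) := fun k e => h (by rw [e])
  simp [E_apply, pderiv_X_of_ne (this _)]

theorem pres_E [CharP K p] {a b : ZMod (e * n)} (h : cl a = cl b) : Pres p (E K a b) := by
  refine ⟨fun w hw M M' h1 => ?_, fun M M' v h1 h2 => ⟨v.2, rfl, ?_⟩⟩
  · rw [E_apply, coeff_sum] at h1
    obtain ⟨k, -, h2⟩ := Finset.exists_ne_zero_of_sum_ne_zero h1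
    rw [pderiv_monomial, X, monomial_mul, coeff_monomial] at h2
    split_ifs at h2 with h3
    · rw [← h3, map_add, weight_single, one_smul, hw k a b h, add_comm]
      exact weight_sub_single_add fun h4 => h2 (by simp [h4])
    · exact absurd rfl h2
  · obtain ⟨m, rfl⟩ := split_big h1
    rw [monomial_add_single, E_mul, E_pow, mul_zero, add_zero] at h2
    exact coeff_mul_pow h2

variable [NeZero (e * n)]

theorem sg_X (A : Matrix (ZMod (e * n)) (ZMod (e * n)) K) (v : Vr e n) :
    sg A (X v) = ∑ t, A t v.2 • X (v.1, t) := aeval_X _ _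

theorem sg_pow [CharP K p] (hp : p.Prime) (A : Matrix (ZMod (e * n)) (ZMod (e * n)) K)
    (v : Vr e n) : sg A (X v ^ p) = ∑ t, A t v.2 ^ p • X (v.1, t) ^ p := by
  haveI := Fact.mk hp
  rw [map_pow, sg_X, sum_pow_char]
  simp only [smul_pow]

theorem pres_sg [CharP K p] (hp : p.Prime) {A : Matrix (ZMod (e * n)) (ZMod (e * n)) K}
    (h : ∀ t' t, A t' t ≠ 0 → cl t' = cl t) : Pres p (sg A).toLinearMap := by
  refine ⟨fun w hw M M' h1 => ?_, fun M M' v h1 h2 => ?_⟩
  · have hX : ∀ v, IsWeightedHomogeneous w (sg A (X v)) (w v) := fun v => by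
      rw [sg_X]
      refine IsWeightedHomogeneous.sum _ _ _ fun t _ => ?_
      by_cases h0 : A t v.2 = 0
      · rw [h0, zero_smul]; exact isWeightedHomogeneous_zero _ _ _
      · rw [smul_eq_C_mul, ← hw v.1 t v.2 (h _ _ h0)]
        exact (isWeightedHomogeneous_X K w _).C_mul _
    have : IsWeightedHomogeneous w (sg A (monomial M 1)) (weight w M) := by
      rw [monomial_eq, C_1, one_mul, Finsupp.prod, map_prod, weight_apply, Finsupp.sum]
      exact IsWeightedHomogeneous.prod _ _ _ fun v _ => by rw [map_pow]; exact (hX v).pow _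
    exact this h1
  · obtain ⟨m, rfl⟩ := split_big h1
    rw [monomial_add_single, AlgHom.toLinearMap_apply, map_mul, sg_pow hp, Finset.mul_sum,
      coeff_sum] at h2
    obtain ⟨t, -, h3⟩ := Finset.exists_ne_zero_of_sum_ne_zero h2
    rw [mul_smul_comm, coeff_smul, smul_eq_mul] at h3
    exact ⟨t, h _ _ fun h4 => h3 (by simp [h4, hp.ne_zero]),
      coeff_mul_pow (right_ne_zero_of_mul h3)⟩

theorem Pres.dg_eq {T : MvPolynomial (Vr e n) K →ₗ[K] MvPolynomial (Vr e n) K} (h : Pres p T)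
    {M M' : Mon e n} (h1 : coeff M' (T (monomial M 1)) ≠ 0) : dg M' = dg M := by
  simpa [weight_eq_sum, dg] using h.wt (fun _ => 1) (fun _ _ _ _ => rfl) M M' h1

theorem cd_eq (M : Mon e n) (k : Bool) (s : ZMod e) :
    cd M k s = weight (fun v => if v.1 = k ∧ cl v.2 = s then 1 else 0) M := by
  rw [weight_eq_sum, Fintype.sum_prod_type, cd, Finset.sum_filter]
  cases k <;> simp

theorem Pres.cd_eq {T : MvPolynomial (Vr e n) K →ₗ[K] MvPolynomial (Vr e n) K} (h : Pres p T)
    {M M' : Mon e n} (h1 : coeff M' (T (monomial M 1)) ≠ 0) : cd M' = cd M := by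
  funext k s
  rw [SgR.cd_eq, SgR.cd_eq]
  exact h.wt _ (fun _ _ _ e => by simp [e]) M M' h1

theorem cd_add (M M' : Mon e n) (k : Bool) (s : ZMod e) :
    cd (M + M') k s = cd M k s + cd M' k s := by simp only [cd_eq, map_add]

theorem cd_single (v : Vr e n) (j : ℕ) (k : Bool) (s : ZMod e) :
    cd (single v j) k s = if k = v.1 ∧ s = cl v.2 then j else 0 := by
  simp [cd_eq, weight_single, eq_comm]

theorem dg_eq_sum (M : Mon e n) :
    dg M = ∑ k, ∑ s ∈ (Finset.univ : Finset (ZMod (e * n))).image cl, cd M k s := by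
  rw [dg, Fintype.sum_prod_type]
  exact Finset.sum_congr rfl fun k _ => (Finset.sum_fiberwise_of_maps_to
    (fun t _ => Finset.mem_image_of_mem _ (Finset.mem_univ t)) _).symm

theorem dg_of_cd {M M' : Mon e n} (h : cd M = cd M') : dg M = dg M' := by
  rw [dg_eq_sum, dg_eq_sum, h]

end H30.SgR
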