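import Cfsg.Agent.H53.SGSpec

/-! SG-RED: reduced polynomials and functions. -/

set_option autoImplicit false
set_option maxHeartbeats 400000

namespace H30.SgR

open Finsupp MvPolynomial Module H53.SG
open scoped Classical

universe v

theorem dig {N p : ℕ} [NeZero N] {η : ZMod N → ℕ} (h : ∀ t, η t < p) :
    ∑ t, η t * p ^ t.val < p ^ N ∧ ∀ η' : ZMod N → ℕ, (∀ t, η' t < p) →
      ∑ t, η t * p ^ t.val = ∑ t, η' t * p ^ t.val → η = η' := by
  obtain ⟨k, rfl⟩ := Nat.exists_eq_succ_of_ne_zero (NeZero.ne N)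
  refine ⟨(finFunctionFinEquiv (n := k + 1) fun t => ⟨η t, h t⟩).2, fun η' h' e => ?_⟩
  have := (finFunctionFinEquiv (n := k + 1)).injective (a₁ := fun t => ⟨η t, h t⟩)
    (a₂ := fun t => ⟨η' t, h' t⟩) (Fin.ext e)
  exact funext fun t => congrArg Fin.val (congrFun this t)

variable {K : Type v} [Field K] [Fintype K]

theorem uniq1 {ι : Type*} (s : Finset ι) (a : ι → ℕ) (c : ι → K)
    (ha : ∀ i ∈ s, a i < Fintype.card K) (h : ∀ x : K, ∑ i ∈ s, c i * x ^ a i = 0) (k : ℕ) :
    ∑ i ∈ s with a i = k, c i = 0 := by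
  have h0 : (∑ i ∈ s, Polynomial.monomial (a i) (c i)) = 0 := by
    refine Polynomial.eq_zero_of_natDegree_lt_card_of_eval_eq_zero _ Function.injective_id
      (fun x => by simpa [Polynomial.eval_finset_sum] using h x) ?_
    have := Polynomial.natDegree_sum_le_of_forall_le s (fun i => Polynomial.monomial (a i) (c i))
      (n := Fintype.card K - 1) fun i hi =>
        (Polynomial.natDegree_monomial_le _).trans (Nat.le_sub_one_of_lt (ha i hi))
    have := Fintype.card_pos (α := K)
    omega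
  have := congrArg (fun P => Polynomial.coeff P k) h0
  simpa [Polynomial.coeff_monomial, Finset.sum_filter] using this

variable {p e n : ℕ} [NeZero (e * n)]

theorem uniq2 (hK : Fintype.card K = p ^ (e * n)) (s : Finset (Mon e n)) (c : Mon e n → K)
    (hs : ∀ m ∈ s, Red p m)
    (h : ∀ x y : K, ∑ m ∈ s, c m * x ^ vc p m false * y ^ vc p m true = 0) :
    ∀ m ∈ s, c m = 0 := by
  intro m hm
  have hlt : ∀ k, ∀ m ∈ s, vc p m k < Fintype.card K := fun k m hm =>
    hK ▸ (dig fun t => hs m hm (k, t)).1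
  have h1 := fun x => uniq1 s (fun m => vc p m true) (fun m => c m * x ^ vc p m false)
    (hlt true) (h x) (vc p m true)
  have h2 := uniq1 _ (fun m => vc p m false) c
    (fun m hm => hlt false m (Finset.mem_filter.1 hm).1) h1 (vc p m false)
  rw [Finset.sum_eq_single_of_mem m (by simp [hm])] at h2
  · exact h2
  · intro m' hm' hne
    simp only [Finset.mem_filter] at hm'
    refine absurd (Finsupp.ext fun v => ?_) hne
    obtain ⟨k, t⟩ := v
    refine congrFun ((dig fun t => hs m' hm'.1.1 (k, t)).2 _ (fun t => hs m hm (k, t)) ?_) t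
    cases k
    exacts [hm'.2, hm'.1.2]

omit [Fintype K] in
theorem ev_monomial (m : Mon e n) (c x y : K) :
    ev p (monomial m c) x y = c * x ^ vc p m false * y ^ vc p m true := by
  rw [ev, eval_monomial, Finsupp.prod_fintype _ _ (by simp), Fintype.prod_prod_type,
    Fintype.prod_bool]
  simp only [vc, val, ← pow_mul, Finset.prod_pow_eq_pow_sum, if_true, Bool.false_eq_true,
    if_false, mul_comm (p ^ _)]
  ring

omit [Fintype K] in
theorem ev_eq (G : MvPolynomial (Vr e n) K) (x y : K) :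
    ev p G x y = ∑ m ∈ G.support, coeff m G * x ^ vc p m false * y ^ vc p m true := by
  conv_lhs => rw [G.as_sum]
  simp only [← ev_monomial]
  exact map_sum _ _ _

theorem red_zero (hK : Fintype.card K = p ^ (e * n)) {G : MvPolynomial (Vr e n) K}
    (h1 : ∀ m, coeff m G ≠ 0 → Red p m) (h2 : ∀ x y, ev p G x y = 0) : G = 0 := by
  ext m
  by_contra h
  exact h (uniq2 hK G.support (fun m => coeff m G) (fun m hm => h1 m (MvPolynomial.mem_support_iff.1 hm))
    (fun x y => by rw [← ev_eq, h2]) m (MvPolynomial.mem_support_iff.2 h))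

theorem pow_val_add (hK : Fintype.card K = p ^ (e * n)) (z : K) (a b : ZMod (e * n)) :
    z ^ p ^ (a + b).val = (z ^ p ^ a.val) ^ p ^ b.val := by
  rw [← pow_mul, ← pow_add, ZMod.val_add]
  conv_rhs => rw [← Nat.div_add_mod (a.val + b.val) (e * n), pow_add, pow_mul, pow_mul, ← hK,
    FiniteField.pow_card_pow]

theorem pow_val_succ (hK : Fintype.card K = p ^ (e * n)) (z : K) (a : ZMod (e * n)) :
    z ^ p ^ (a + 1).val = (z ^ p ^ a.val) ^ p := by
  rw [pow_val_add hK, ZMod.val_one_eq_one_mod]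
  generalize z ^ p ^ a.val = y
  have h : p ^ 1 = Fintype.card K ^ (1 / (e * n)) * p ^ (1 % (e * n)) := by
    rw [hK, ← pow_mul, ← pow_add, Nat.div_add_mod]
  rw [pow_one] at h
  conv_rhs => rw [h, pow_mul, FiniteField.pow_card_pow]

/-- the span of the relations -/
noncomputable def SD (K : Type v) [Field K] (p e n D : ℕ) [NeZero (e * n)] :
    Submodule K (MvPolynomial (Vr e n) K) :=
  Submodule.span K {Z | ∃ m v, dg m + p ≤ D ∧
    Z = monomial (m + single v p) (1 : K) - monomial (m + single (nx v) 1) 1}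

theorem dg_add (m m' : Mon e n) : dg (m + m') = dg m + dg m' := by
  simp [dg, Finset.sum_add_distrib]

theorem dg_single (v : Vr e n) (j : ℕ) : dg (single v j) = j := by
  simp [dg, Finsupp.single_apply]

theorem ev_SD (hK : Fintype.card K = p ^ (e * n)) {D : ℕ} {G : MvPolynomial (Vr e n) K}
    (h : G ∈ SD K p e n D) (x y : K) : ev p G x y = 0 := by
  induction h using Submodule.span_induction with
  | mem Z hZ =>
    obtain ⟨m, v, -, rfl⟩ := hZ
    rw [monomial_add_single, monomial_add_single, pow_one, ← mul_sub]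
    simp [ev, nx, pow_val_succ hK]
  | zero => simp [ev]
  | add a b _ _ ha hb => simp only [ev, map_add] at ha hb ⊢; rw [ha, hb, add_zero]
  | smul c a _ ha => simp only [ev, smul_eval] at ha ⊢; rw [ha, mul_zero]

omit [Fintype K] in
theorem red_mon (hp : 1 < p) (m : Mon e n) : ∃ m', Red p m' ∧ ∀ D, dg m ≤ D →
    monomial m (1 : K) - monomial m' 1 ∈ SD K p e n D := by
  induction hd : dg m using Nat.strong_induction_on generalizing m with
  | _ d ih =>
  by_cases h : Red p m
  · exact ⟨m, h, fun D _ => by simp⟩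
  obtain ⟨v, hv⟩ := not_forall.1 h
  obtain ⟨m0, rfl⟩ : ∃ m0, m = m0 + single v p :=
    ⟨m - single v p, (tsub_add_cancel_of_le (single_le_iff.2 (not_lt.1 hv))).symm⟩
  rw [dg_add, dg_single] at hd
  obtain ⟨m', h1, h2⟩ := ih _ (by rw [dg_add, dg_single]; omega) (m0 + single (nx v) 1) rfl
  refine ⟨m', h1, fun D hD => ?_⟩
  have h3 : monomial (m0 + single v p) (1 : K) - monomial (m0 + single (nx v) 1) 1 ∈
      SD K p e n D := Submodule.subset_span ⟨m0, v, hd ▸ hD, rfl⟩
  have := add_mem h3 (h2 D (by rw [dg_add, dg_single]; omega))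
  rwa [sub_add_sub_cancel] at this

omit [Fintype K] in
theorem red_poly (hp : 1 < p) (G : MvPolynomial (Vr e n) K) : ∃ G' : MvPolynomial (Vr e n) K,
    (∀ m, coeff m G' ≠ 0 → Red p m) ∧
      ∀ D, (∀ m, coeff m G ≠ 0 → dg m ≤ D) → G - G' ∈ SD K p e n D := by
  choose r hr1 hr2 using red_mon (K := K) (e := e) (n := n) hp
  refine ⟨∑ m ∈ G.support, coeff m G • monomial (r m) 1, fun m hm => ?_, fun D hD => ?_⟩
  · rw [coeff_sum] at hm
    obtain ⟨m', -, h⟩ := Finset.exists_ne_zero_of_sum_ne_zero hm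
    rw [coeff_smul, coeff_monomial] at h
    split_ifs at h with h1
    · exact h1 ▸ hr1 m'
    · simp at h
  · nth_rw 1 [G.as_sum]
    rw [← Finset.sum_sub_distrib]
    refine Submodule.sum_mem _ fun m hm => ?_
    have := Submodule.smul_mem _ (coeff m G) (hr2 m D (hD m (MvPolynomial.mem_support_iff.1 hm)))
    rwa [smul_sub, smul_monomial, smul_eq_mul, mul_one] at this

theorem nf : NF.{v} := by
  intro p e n _ K _ _ _ hp hK D G h1 h2
  obtain ⟨G', h3, h4⟩ := red_poly hp.one_lt G
  have h5 := h4 D h1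
  have : G' = 0 := red_zero hK h3 fun x y => by
    have := ev_SD hK h5 x y
    simp only [ev, map_sub] at this h2 ⊢
    rwa [h2, zero_sub, neg_eq_zero] at this
  rwa [this, sub_zero] at h5

theorem exists_red (hp : 1 < p) (hK : Fintype.card K = p ^ (e * n)) (f : K → K → K) :
    ∃ Φ : MvPolynomial (Vr e n) K, (∀ m, coeff m Φ ≠ 0 → Red p m) ∧
      ∀ x y, ev p Φ x y = f x y := by
  let G : MvPolynomial (Vr e n) K := ∑ a : K, ∑ b : K, C (f a b) *
    (1 - (X (false, 0) - C a) ^ (Fintype.card K - 1)) *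
      (1 - (X (true, 0) - C b) ^ (Fintype.card K - 1))
  obtain ⟨G', h3, h4⟩ := red_poly hp G
  refine ⟨G', h3, fun x y => ?_⟩
  have h5 := ev_SD hK (h4 (G.support.sup dg) fun m hm =>
    Finset.le_sup (f := dg) (MvPolynomial.mem_support_iff.2 hm)) x y
  have hi : ∀ x a : K, 1 - (x - a) ^ (Fintype.card K - 1) = if x = a then 1 else 0 := by
    intro x a
    split_ifs with h
    · have := Fintype.one_lt_card (α := K)
      rw [h, sub_self, zero_pow (by omega), sub_zero]
    · rw [FiniteField.pow_card_sub_one_eq_one _ (sub_ne_zero.2 h), sub_self]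
  have h6 : ev p G x y = f x y := by simp [G, ev, hi]
  simp only [ev, map_sub] at h5 h6 ⊢
  rw [← h6]
  exact (sub_eq_zero.1 h5).symm

theorem scaling (hK : Fintype.card K = p ^ (e * n)) (Φ : MvPolynomial (Vr e n) K)
    (h1 : ∀ m, coeff m Φ ≠ 0 → Red p m) (α β γ : K)
    (h2 : ∀ x y, ev p Φ (α * x) (β * y) = γ * ev p Φ x y) (m : Mon e n) (hm : coeff m Φ ≠ 0) :
    α ^ vc p m false * β ^ vc p m true = γ := by
  have := uniq2 hK Φ.support (fun m => (α ^ vc p m false * β ^ vc p m true - γ) * coeff m Φ)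
    (fun m hm => h1 m (MvPolynomial.mem_support_iff.1 hm)) (fun x y => by
      rw [← sub_eq_zero.2 (h2 x y), ev_eq, ev_eq, Finset.mul_sum, ← Finset.sum_sub_distrib]
      exact Finset.sum_congr rfl fun m _ => by ring) m (MvPolynomial.mem_support_iff.2 hm)
  exact sub_eq_zero.1 ((mul_eq_zero.1 this).resolve_right hm)

theorem indep (hp : 1 < p) (hK : Fintype.card K = p ^ (e * n)) (a : ZMod (e * n) → K)
    (h : ∀ x : K, ∑ t, a t * x ^ p ^ t.val = 0) : a = 0 := by
  funext t
  have := uniq1 Finset.univ (fun t : ZMod (e * n) => p ^ t.val) a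
    (fun t _ => hK ▸ Nat.pow_lt_pow_right hp t.val_lt) h (p ^ t.val)
  rwa [Finset.sum_eq_single_of_mem t (by simp) fun t' ht' hne => absurd (ZMod.val_injective _
    (Nat.pow_right_injective hp (Finset.mem_filter.1 ht').2)) hne] at this

theorem exists_lin [CharP K p] (hp : p.Prime) (hK : Fintype.card K = p ^ (e * n)) (h : K →+ K) :
    ∃ a : ZMod (e * n) → K, ∀ x, h x = ∑ t, a t * x ^ p ^ t.val := by
  haveI := Fact.mk hp
  letI := ZMod.algebra K p
  let Ψ : (ZMod (e * n) → K) → (K →+ K) := fun a => AddMonoidHom.mk'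
    (fun x => ∑ t, a t * x ^ p ^ t.val) fun x y => by
      simp [add_pow_char_pow, mul_add, Finset.sum_add_distrib]
  have hΨ : Function.Injective Ψ := fun a a' e => sub_eq_zero.1 (indep hp.one_lt hK _ fun x => by
    have := DFunLike.congr_fun e x
    simp only [Ψ, AddMonoidHom.mk'_apply] at this
    simp [sub_mul, this])
  have hr : finrank (ZMod p) K = e * n := Nat.pow_right_injective hp.two_le (by
    have := Module.card_eq_pow_finrank (K := ZMod p) (V := K)
    rw [ZMod.card] at this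
    exact this.symm.trans hK)
  let b := Module.finBasis (ZMod p) K
  have hb : Function.Injective fun (g : K →+ K) i => g (b i) := fun g g' e => by
    have : g.toZModLinearMap p = g'.toZModLinearMap p := b.ext fun i => congrFun e i
    exact AddMonoidHom.ext fun x => DFunLike.congr_fun this x
  haveI : Finite (K →+ K) := Finite.of_injective _ hb
  obtain ⟨a, rfl⟩ := (hΨ.bijective_of_nat_card_le ((Nat.card_le_card_of_injective _ hb).trans
    (by simp [hr]))).2 h
  exact ⟨a, fun x => rfl⟩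

theorem exists_gen (hp : 1 < p) (hK : Fintype.card K = p ^ (e * n)) :
    ∃ c : K, c ^ p ^ e = c ∧ ∀ j, c ^ p ^ j = c → e ∣ j := by
  obtain ⟨g, hg⟩ := IsCyclic.exists_ofOrder_eq_natCard (α := Kˣ)
  rw [Nat.card_units, Nat.card_eq_fintype_card, hK] at hg
  have h1 := orderOf_pow_orderOf_div (x := g) (n := p ^ e - 1) (orderOf_pos g).ne'
    (hg ▸ Nat.pow_sub_one_dvd_pow_sub_one p (dvd_mul_right e n))
  set u := g ^ (orderOf g / (p ^ e - 1))
  have h2 : ∀ j, (u : K) ^ p ^ j = u ↔ p ^ e - 1 ∣ p ^ j - 1 := fun j => by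
    rw [← h1, orderOf_dvd_iff_pow_eq_one, ← Units.val_pow_eq_pow_val, Units.val_inj]
    conv_lhs => rw [← Nat.sub_add_cancel (Nat.one_le_pow j p (by omega)), pow_succ, mul_eq_right]
  refine ⟨u, (h2 e).2 dvd_rfl, fun j hj => ?_⟩
  have h3 := Nat.pow_sub_one_mod_pow_sub_one p e j
  rw [Nat.mod_eq_zero_of_dvd ((h2 j).1 hj)] at h3
  by_contra h4
  have := Nat.one_lt_pow (fun h => h4 (Nat.dvd_of_mod_eq_zero h)) hp
  omega

theorem exists_mat [CharP K p] (hp : p.Prime) (hK : Fintype.card K = p ^ (e * n)) (h : K →+ K)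
    (hl : ∀ c x, c ^ p ^ e = c → h (c * x) = c * h x) :
    ∃ A : Matrix (ZMod (e * n)) (ZMod (e * n)) K, (∀ t' t, A t' t ≠ 0 → cl t' = cl t) ∧
      ∀ x t, h x ^ p ^ t.val = ∑ t', A t' t * x ^ p ^ t'.val := by
  haveI := Fact.mk hp
  obtain ⟨a, ha⟩ := exists_lin hp hK h
  obtain ⟨c, hc, hc'⟩ := exists_gen hp.one_lt hK
  have h1 := indep hp.one_lt hK (fun t => a t * (c ^ p ^ t.val - c)) fun x => by
    rw [← sub_eq_zero.2 (hl c x hc), ha, ha, Finset.mul_sum, ← Finset.sum_sub_distrib]
    exact Finset.sum_congr rfl fun t _ => by rw [mul_pow]; ring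
  refine ⟨fun t' t => a (t' - t) ^ p ^ t.val, fun t' t h2 => ?_, fun x t => ?_⟩
  · have h3 := hc' _ (sub_eq_zero.1 ((mul_eq_zero.1 (congrFun h1 (t' - t))).resolve_left
      fun h => h2 (by simp [h, hp.ne_zero])))
    have h4 : cl (t' - t) = 0 := by
      rw [← ZMod.natCast_zmod_val (t' - t), cl_natCast]
      exact (ZMod.natCast_eq_zero_iff _ _).2 h3
    rw [← sub_add_cancel t' t, cl_add, h4, zero_add]
  · rw [ha, sum_pow_char_pow]
    refine Fintype.sum_equiv (Equiv.addRight t) _ _ fun u => ?_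
    simp [mul_pow, pow_val_add hK]

theorem jobRed : JobRed.{v} :=
  ⟨nf, fun _ _ _ _ _ _ _ _ hp hK => ⟨exists_red hp.one_lt hK, scaling hK, exists_mat hp hK,
    indep hp.one_lt hK⟩⟩

end H30.SgR
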